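import Cfsg.Agent.H2.CK10

/-! The subspaces attached to flags form a partition when they are large. -/

set_option autoImplicit false
set_option linter.unusedSimpArgs false
set_option linter.unusedSectionVars false
set_option linter.unusedVariables false

namespace Cfsg.Agent.H2.CK

open Module Submodule

variable {F V W : Type*} [Field F] [Fintype F] [AddCommGroup V] [Module F V] [FiniteDimensional F V]
  [AddCommGroup W] [Module F W] [FiniteDimensional F W] {Γ : Type*} [Group Γ] [Finite Γ]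
  [DistribMulAction Γ V] [SMulCommClass Γ F V] [DistribMulAction Γ W] [SMulCommClass Γ F W]
  {B : V →ₗ[F] W →ₗ[F] F} {S T : Submodule F V} {x y z v x' y' v' : V} {φ ψ χ w φ' ψ' : W} {g : Γ}
  {p : ℕ} [Fact p.Prime] [CharP F p] {Q : Sylow p Γ} {a : ℕ}

local notation "q" => Fintype.card F
local notation "ℓ[" x ", " y "]" => span F {x, y}

theorem h4_dvd_shift [Fintype V] (U : Submodule F V) (N : V → ℕ) (hN : ∀ z, ∀ u ∈ U, N (z + u) = N z) :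
    q ^ finrank F U ∣ ∑ z, N z := by
  classical
  have : Fintype (V ⧸ U) := Fintype.ofSurjective U.mkQ U.mkQ_surjective
  rw [← Finset.sum_fiberwise (s := Finset.univ) (g := U.mkQ) N]
  refine Finset.dvd_sum fun c _ => ?_
  obtain ⟨v, rfl⟩ := U.mkQ_surjective c
  rw [Finset.sum_congr rfl (g := fun _ => N v) fun z hz => by
    have := hN v (z - v) ((Submodule.Quotient.eq U).1 (Finset.mem_filter.1 hz).2)
    rwa [add_sub_cancel] at this, Finset.sum_const, smul_eq_mul, ← Set.ncard_coe_finset,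
    ncard_aff (v := v) (S := U) fun y => by simp [Submodule.Quotient.eq]]
  exact dvd_mul_right _ _

theorem h4_swap [Fintype V] (R : V → V → Prop) :
    ∑ z, {y | R y z}.ncard = ∑ y, {z | R y z}.ncard := by
  classical
  simp only [Set.ncard_eq_toFinset_card', Set.toFinset_setOf, Finset.card_filter]
  exact Finset.sum_comm

theorem h4_meet {A C D : Submodule F V} (h1 : A ≤ D) (h2 : C ≤ D) :
    finrank F A + finrank F C ≤ finrank F D + finrank F ↥(A ⊓ C) := by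
  have := finrank_sup_add_finrank_inf_eq A C
  have := finrank_mono (sup_le h1 h2)
  omega

theorem h4_ex {A C : Submodule F V} (h : finrank F C < finrank F A) : ∃ v ∈ A, v ∉ C := by
  by_contra! k
  have := finrank_mono (show A ≤ C from k)
  omega

namespace Cf

variable (h : Cf Γ B)
include h

theorem a_fc (φ0 : φ ≠ 0) (x0 : x ≠ 0) (e : B x φ = 0) (y1 : y ∈ (Ul Γ p x φ : Submodule F V))
    (y2 : y ∉ F ∙ x) (x1 : x' ≠ 0) (e' : B x' φ = 0) (z1 : y' ∈ (Ul Γ p x' φ : Submodule F V))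
    (z2 : y' ∉ F ∙ x') : finrank F ↥(Ul Γ p x' φ ⊓ Ul Γ p y' φ : Submodule F V) =
      finrank F ↥(Ul Γ p x φ ⊓ Ul Γ p y φ : Submodule F V) := by
  obtain ⟨g, g1, g2⟩ := h.fl x φ x' φ x0 φ0 e x1 φ0 e'
  replace g2 := mem_st1.2 g2
  have e1 : (Ul Γ p (g • x) φ : Submodule F V) = Ul Γ p x' φ := ul_congr g1 (ne0 x0 g) (sp1 _) φ0
  obtain ⟨l, hl, rfl⟩ := h.cos' (p := p) (y := g • y) x1 φ0 e' (fun k => y2 (by
    rw [← sp_eq g1 (ne0 x0 g)] at k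
    obtain ⟨c, k⟩ := mem_span_singleton.1 k
    exact mem_span_singleton.2 ⟨c, MulAction.injective g (by simpa [smul_comm g c] using k)⟩))
    (by rwa [← e1, h.ust φ0 g2, smul_mp]) z2 z1
  symm
  rw [← fr_mp g, ← fr_mp l, mp_inf, mp_inf, ← h.ust φ0 g2, ← h.ust φ0 g2, e1, ← h.ust φ0 hl.2,
    ← h.ust φ0 hl.2, ul_congr (mem_st1.1 hl.1) (ne0 x1 l) (sp1 _) φ0]

theorem a_two (φ0 : φ ≠ 0)
    (u : ∀ x : V, x ≠ 0 → B x φ = 0 → finrank F (Ul Γ p x φ : Submodule F V) = a + 1)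
    (x0 : x ≠ 0) (e : B x φ = 0) (y1 : y ∈ (Ul Γ p x φ : Submodule F V)) (y2 : y ∉ F ∙ x) :
    a ≤ finrank F ↥(Ul Γ p x φ ⊓ Ul Γ p y φ : Submodule F V) := by
  classical
  have : Finite V := Module.finite_of_finite F
  have := Fintype.ofFinite V
  set f := finrank F ↥(Ul Γ p x φ ⊓ Ul Γ p y φ : Submodule F V) with hf
  have sx := le1.2 (h.ul_self (p := p) x0 φ0 e)
  have k := h4_dvd_shift (Ul Γ p x φ : Submodule F V) (fun z => {y | (y ∈ (Ul Γ p x φ : Submodule F V) ∧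
    y ∉ F ∙ x) ∧ z ∈ (Ul Γ p y φ : Submodule F V) ∧ z ∉ (Ul Γ p x φ : Submodule F V)}.ncard)
    fun z t ht => by
      by_cases m : z ∈ (Ul Γ p x φ : Submodule F V)
      · simp [m, add_mem m ht]
      have m' : z + t ∉ (Ul Γ p x φ : Submodule F V) := fun k => m (by simpa using sub_mem k ht)
      obtain ⟨g, hg, e1⟩ := h.cos x0 φ0 e (fun k => m (sx k)) ht fun k => m' (sx k)
      have g3 := st_ul (p := p) hg.1 hg.2 x0 φ0
      rw [← Set.ncard_image_of_injective _ (MulAction.injective g⁻¹)]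
      congr 1; ext y
      constructor
      · rintro ⟨y, ⟨⟨k1, k2⟩, k3, -⟩, rfl⟩
        exact ⟨⟨inv_mem g3 _ k1, nm_st (inv_mem hg.1) k2⟩, by
          rw [h.ust φ0 (inv_mem hg.2), mem_mp, inv_inv, e1]; exact k3, m⟩
      · rintro ⟨⟨k1, k2⟩, k3, -⟩
        exact ⟨g • y, ⟨⟨g3 _ k1, nm_st hg.1 k2⟩, by rwa [h.ust φ0 hg.2, ← e1, smul_mp], m'⟩, by simp⟩
  rw [h4_swap, Finset.sum_congr rfl (g := fun y => if y ∈ ((Ul Γ p x φ : Submodule F V) : Set V) \ (F ∙ x)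
      then q ^ (a + 1) - q ^ f else 0) fun y' _ => by
    split_ifs with m
    · rw [← u y' (nz m.2) (h.ul_orth m.1), hf, ← h.a_fc φ0 x0 e y1 y2 x0 e m.1 m.2,
        ← ncard_diff inf_le_right]
      congr 1; ext z
      exact ⟨fun k => ⟨k.2.1, fun l => k.2.2 l.1⟩, fun k => ⟨m, k.1, fun l => k.2 ⟨l, k.1⟩⟩⟩
    · rw [Set.ncard_eq_zero]
      exact Set.eq_empty_of_forall_notMem fun z k => m k.1,
    ← Finset.sum_filter, Finset.sum_const, smul_eq_mul, ← Set.ncard_coe_finset, Finset.coe_filter,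
    show ∀ s : Set V, {y | y ∈ Finset.univ ∧ y ∈ s} = s from fun s => by simp, ncard_diff sx, fr1 x0,
    u x x0 e] at k
  by_contra! lt
  have q2 : 2 ≤ q := Fintype.one_lt_card
  have k1 : q ^ 1 ≤ q ^ (a + 1) := Nat.pow_le_pow_right (by omega) (by omega)
  have k2 : q ^ f ≤ q ^ (a + 1) := Nat.pow_le_pow_right (by omega) (by omega)
  zify [k1, k2] at k
  rw [show ((q : ℤ) ^ (a + 1) - q ^ 1) * (q ^ (a + 1) - q ^ f) =
    q ^ (a + 1) * (q ^ (a + 1) - q ^ f - q ^ 1) + q ^ (f + 1) by ring, dvd_add_right (by simp)] at k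
  have := (Nat.pow_dvd_pow_iff_le_right q2).1 (by exact_mod_cast k)
  omega

theorem a_three (hn : finrank F V ≤ 11) (a3 : 3 ≤ a) (an : a + 4 ≤ finrank F V) (φ0 : φ ≠ 0)
    (u : ∀ x : V, x ≠ 0 → B x φ = 0 → finrank F (Ul Γ p x φ : Submodule F V) = a + 1)
    (hf : ∀ x y : V, x ≠ 0 → B x φ = 0 → y ∈ (Ul Γ p x φ : Submodule F V) → y ∉ F ∙ x →
      finrank F ↥(Ul Γ p x φ ⊓ Ul Γ p y φ : Submodule F V) = a)
    (x0 : x ≠ 0) (e : B x φ = 0) : False := by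
  set U : V → Submodule F V := fun v => Ul Γ p v φ with hU
  have sf : ∀ v, v ≠ 0 → B v φ = 0 → v ∈ U v := fun v a b => h.ul_self a φ0 b
  have or : ∀ {v t}, t ∈ U v → B t φ = 0 := fun k => h.ul_orth k
  have sy : ∀ {v t}, v ≠ 0 → B v φ = 0 → t ∈ U v → v ∈ U t := fun a b k => h.ul_symm a φ0 b k
  replace u : ∀ x : V, x ≠ 0 → B x φ = 0 → finrank F (U x) = a + 1 := u
  replace hf : ∀ x y : V, x ≠ 0 → B x φ = 0 → y ∈ U x → y ∉ F ∙ x → finrank F ↥(U x ⊓ U y) = a := hf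
  have ex : ∀ v, v ≠ 0 → B v φ = 0 → ∃ t ∈ U v, t ∉ F ∙ v := fun v b c =>
    h4_ex (by rw [u v b c, fr1 b]; omega)
  rcases a3.eq_or_lt with rfl | a4
  · have c1 : ∀ y z, y ∈ U x → y ∉ F ∙ x → z ∈ U x ⊓ U y → z ∉ ℓ[x, y] → U x ⊓ U z = U x ⊓ U y :=
      fun y z y1 y2 z1 z2 => by
        have z3 : z ∉ F ∙ x := fun k => z2 (l3 k)
        have k1 : ℓ[x, y] ⊔ F ∙ z = U x ⊓ U z := eq_of_le_of_finrank_eq (le3 ⟨sf x x0 e, sy x0 e z1.1⟩
          ⟨y1, sy (nz y2) (or y1) z1.2⟩ ⟨z1.1, sf z (nz z3) (or z1.1)⟩) (by rw [fr3 x0 y2 z2, hf x z x0 e z1.1 z3])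
        have k2 : ℓ[x, y] ⊔ F ∙ z = U x ⊓ U y := eq_of_le_of_finrank_eq (le3 ⟨sf x x0 e, sy x0 e y1⟩
          ⟨y1, sf y (nz y2) (or y1)⟩ z1) (by rw [fr3 x0 y2 z2, hf x y x0 e y1 y2])
        rw [← k1, k2]
    have c2 : ∀ y z, y ∈ U x → y ∉ F ∙ x → z ∈ U x ⊓ U y → z ∉ F ∙ x → U x ⊓ U z = U x ⊓ U y :=
      fun y z y1 y2 z1 z2 => by
        by_cases m : z ∈ ℓ[x, y]
        · obtain ⟨t, t1, t2⟩ := h4_ex (A := U x ⊓ U y) (C := ℓ[x, y]) (by rw [hf x y x0 e y1 y2, fr2 x0 y2]; omega)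
          have k := c1 y t y1 y2 t1 t2
          rw [← k]
          exact c1 t z t1.1 (fun k => t2 (l3 k)) (k ▸ z1) fun k => t2 (by
            rw [← ln_eq x0 z2 (l1 x y) m, ln_eq x0 z2 (l1 x t) k]; exact l2 _ _)
        · exact c1 y z y1 y2 z1 m
    obtain ⟨y, y1, y2⟩ := ex x x0 e
    obtain ⟨y', z1, z2⟩ := h4_ex (A := U x) (C := U x ⊓ U y) (by rw [hf x y x0 e y1 y2, u x x0 e]; omega)
    have z3 : y' ∉ F ∙ x := fun k => z2 (le1.2 (show x ∈ U x ⊓ U y from ⟨sf x x0 e, sy x0 e y1⟩) k)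
    have := h4_meet (A := U x ⊓ U y) (C := U x ⊓ U y') inf_le_left inf_le_left
    rw [hf x y x0 e y1 y2, hf x y' x0 e z1 z3, u x x0 e] at this
    obtain ⟨t, t1, t2⟩ := h4_ex (A := (U x ⊓ U y) ⊓ (U x ⊓ U y')) (C := F ∙ x) (by rw [fr1 x0]; omega)
    exact z2 (by rw [← c2 y t y1 y2 t1.1 t2, c2 y' t z1 z3 t1.2 t2]; exact ⟨z1, sf _ (nz z3) (or z1)⟩)
  have fs : ∀ x y : V, x ≠ 0 → B x φ = 0 → y ∈ U x → y ∉ F ∙ x → finrank F ↥(U x ⊔ U y) = a + 2 :=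
    fun x y x0 e y1 y2 => by
      have := finrank_sup_add_finrank_inf_eq (U x) (U y)
      rw [hf x y x0 e y1 y2, u x x0 e, u y (nz y2) (or y1)] at this
      omega
  have m0 : ∀ x y z : V, x ≠ 0 → B x φ = 0 → y ∈ U x → y ∉ F ∙ x → z ∈ U y → z ∉ U x →
      U x ⊔ F ∙ z = U x ⊔ U y := fun x y z x0 e y1 y2 z1 z2 =>
    eq_of_le_of_finrank_eq (sup_le_sup_left (le1.2 z1) _) (by
      rw [finrank_sup_span_singleton z2, u x x0 e, fs x y x0 e y1 y2])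
  have m1 : ∀ x y y' : V, x ≠ 0 → B x φ = 0 → y ∈ U x → y ∉ F ∙ x → y' ∈ U x → y' ∉ F ∙ x →
      U x ⊔ U y = U x ⊔ U y' := fun x y y' x0 e y1 y2 y1' y2' => by
    have E : ∀ y, y ∈ U x → y ∉ F ∙ x → ∃ z ∈ U y, z ∉ U x ∧ a ≤ finrank F ↥(U x ⊓ U z) + 1 :=
      fun y y1 y2 => by
        obtain ⟨z, z1, z2⟩ := h4_ex (A := U y) (C := U x ⊓ U y) (by
          rw [hf x y x0 e y1 y2, u y (nz y2) (or y1)]; omega)
        have z3 : z ∉ U x := fun k => z2 ⟨k, z1⟩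
        refine ⟨z, z1, z3, ?_⟩
        have k1 := h4_meet (A := U x ⊓ U y) (C := U y ⊓ U z) inf_le_right inf_le_left
        rw [hf x y x0 e y1 y2, hf y z (nz y2) (or y1) z1 fun k => z3 (le1.2 y1 k),
          u y (nz y2) (or y1)] at k1
        have := finrank_mono (show (U x ⊓ U y) ⊓ (U y ⊓ U z) ≤ U x ⊓ U z from fun v k => ⟨k.1.1, k.2.2⟩)
        omega
    obtain ⟨z, z1, z2, z3⟩ := E y y1 y2
    obtain ⟨z', z1', z2', z3'⟩ := E y' y1' y2'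
    have := h4_meet (A := U x ⊓ U z) (C := U x ⊓ U z') inf_le_left inf_le_left
    rw [u x x0 e] at this
    obtain ⟨t, t1, t2⟩ := h4_ex (A := (U x ⊓ U z) ⊓ (U x ⊓ U z')) (C := ⊥) (by rw [finrank_bot]; omega)
    have t3 : t ∉ F ∙ x := fun k => z2 (sy (nz t2) (or t1.1.1) (sy (nz z2) (or z1) t1.1.2) |> fun _ => by
      have := sy (nz z2) (or z1) t1.1.2
      rwa [show U t = U x from ul_congr k (nz t2) (sp1 _) φ0] at this)
    rw [← m0 x y z x0 e y1 y2 z1 z2, m0 x t z x0 e t1.1.1 t3 (sy (nz z2) (or z1) t1.1.2) z2,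
      ← m0 x t z' x0 e t1.1.1 t3 (sy (nz z2') (or z1') t1.2.2) z2', m0 x y' z' x0 e y1' y2' z1' z2']
  choose! s s1 s2 using ex
  have m2 : ∀ x y : V, x ≠ 0 → B x φ = 0 → y ∈ U x → y ≠ 0 → U y ⊔ U (s y) = U x ⊔ U (s x) :=
    fun x y x0 e y1 y0 => by
      by_cases m : y ∈ F ∙ x
      · have k : U y = U x := ul_congr m y0 (sp1 _) φ0
        rw [k]
        exact m1 x _ _ x0 e (k ▸ s1 y y0 (or y1)) (sp_eq m y0 ▸ s2 y y0 (or y1)) (s1 x x0 e) (s2 x x0 e)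
      · rw [m1 y _ x y0 (or y1) (s1 y y0 (or y1)) (s2 y y0 (or y1)) (sy x0 e y1) (ind_symm x0 m),
          sup_comm, m1 x y _ x0 e y1 m (s1 x x0 e) (s2 x x0 e)]
  have m3 : ∀ x z : V, x ≠ 0 → B x φ = 0 → z ∈ U x ⊔ U (s x) → z ≠ 0 → U z ⊔ U (s z) = U x ⊔ U (s x) :=
    fun x z x0 e z1 z0 => by
      by_cases m : z ∈ U x
      · exact m2 x z x0 e m z0
      obtain ⟨t, t1, r, r1, rfl⟩ := mem_sup.1 z1
      have r2 : r ∉ U x := fun k => m (add_mem t1 k)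
      have sx := le1.2 (sf x x0 e)
      obtain ⟨g, hg, e1⟩ := h.cos (p := p) x0 φ0 e (fun k => r2 (sx k)) t1 fun k => m (add_comm r t ▸ sx k)
      have k1 : g • s x ∈ U x := st_ul (p := p) hg.1 hg.2 x0 φ0 _ (s1 x x0 e)
      have k2 := ne0 (nz (s2 x x0 e)) g
      rw [m2 (g • s x) _ k2 (or k1) (by
        show _ ∈ Ul Γ p (g • s x) φ
        rw [h.ust φ0 hg.2, add_comm, ← e1, smul_mp]; exact r1) z0, m2 x _ x0 e k1 k2]
  have lH : ∀ x : V, U x ⊔ U (s x) ≤ pp B.flip (F ∙ φ) := fun x =>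
    sup_le (fun v k => pp1.2 (or k)) fun v k => pp1.2 (or k)
  have c := h.flip.fr_pp (F ∙ φ)
  rw [fr1 φ0, h.fr] at c
  have k := finrank_mono (show pp B.flip (F ∙ φ) ≤ U x ⊔ U (s x) from fun v hv => by
    by_cases v0 : v = 0
    · rw [v0]; exact zero_mem _
    have e' := pp1' hv
    have := h4_meet (lH x) (lH v)
    rw [fs x _ x0 e (s1 x x0 e) (s2 x x0 e), fs v _ v0 e' (s1 v v0 e') (s2 v v0 e')] at this
    obtain ⟨t, t1, t2⟩ := h4_ex (A := (U x ⊔ U (s x)) ⊓ (U v ⊔ U (s v))) (C := ⊥) (by rw [finrank_bot]; omega)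
    rw [← m3 x t x0 e t1.1 (nz t2), m3 v t v0 e' t1.2 (nz t2)]
    exact mem_sup_left (sf v v0 e'))
  rw [fs x _ x0 e (s1 x x0 e) (s2 x x0 e)] at k
  omega

/-- A2 and A3 -/
theorem a23 (hn : finrank F V ≤ 11) (a3 : 3 ≤ a) (an : a + 4 ≤ finrank F V) (φ0 : φ ≠ 0)
    (u : ∀ x : V, x ≠ 0 → B x φ = 0 → finrank F (Ul Γ p x φ : Submodule F V) = a + 1)
    (x0 : x ≠ 0) (e : B x φ = 0) (y1 : y ∈ (Ul Γ p x φ : Submodule F V)) (y0 : y ≠ 0) :
    (Ul Γ p y φ : Submodule F V) = Ul Γ p x φ := by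
  by_cases y2 : y ∈ F ∙ x
  · exact ul_congr y2 y0 (sp1 _) φ0
  have k1 := h.a_two φ0 u x0 e y1 y2
  rcases k1.eq_or_lt with k | k
  · exact (h.a_three hn a3 an φ0 u (fun x' y' a b c d => (h.a_fc φ0 x0 e y1 y2 a b c d).trans k.symm)
      x0 e).elim
  · have k2 := eq_of_le_of_finrank_le (inf_le_left : (Ul Γ p x φ ⊓ Ul Γ p y φ : Submodule F V) ≤ _)
      (by rw [u x x0 e]; exact k)
    have k3 := eq_of_le_of_finrank_le (inf_le_right : (Ul Γ p x φ ⊓ Ul Γ p y φ : Submodule F V) ≤ _)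
      (by rw [u y y0 (h.ul_orth y1)]; exact k)
    rw [← k3, k2]

end Cf

end Cfsg.Agent.H2.CK
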