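import Cfsg.Agent.H4.EG2
import Cfsg.Agent.H4.OT7
import Cfsg.Agent.H2.BD3
import Cfsg.Agent.H1.BD1

/-! Bender's theorem, end-game: an element of prime order acting on an extraspecial group of order `r ^ 3`. -/

set_option autoImplicit false

namespace Cfsg.Agent.H7.BD

open Cfsg Subgroup Finset H1 H2 H4.CA H4.BS H4.EG MulAction
open scoped ComplexConjugate Classical

theorem zp_prime {E : Type*} [Group E] [Finite E] {y a : E} (hp : (orderOf y).Prime) (ha : a ∈ zpowers y)
    (a1 : a ≠ 1) {W : Subgroup E} (h : a ∈ W) : y ∈ W := by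
  have : Fact (Nat.card (zpowers y)).Prime := ⟨by rwa [Nat.card_zpowers]⟩
  rcases (W.subgroupOf (zpowers y)).eq_bot_or_eq_top_of_prime_card with e1 | e1
  · have h6 : (⟨a, ha⟩ : zpowers y) ∈ W.subgroupOf (zpowers y) := h
    rw [e1, mem_bot] at h6
    exact absurd (Subtype.ext_iff.1 h6) a1
  · exact subgroupOf_eq_top.1 e1 (mem_zpowers y)

theorem weil0 {E : Type*} [Group E] [Fintype E] {T : Subgroup E} [hN : T.Normal] {z y : E} {r p : ℕ}
    (hr : r.Prime) (hp : p.Prime) (r2 : r ≠ 2) (p2 : p ≠ 2) (rp : r ≠ p) (hT : Nat.card T = r ^ 3)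
    (zT : z ∈ T) (hz : orderOf z = r) (hy : orderOf y = p) (zc : ∀ u ∈ T, u * z = z * u)
    (na : ∃ u ∈ T, ∃ v ∈ T, u * v ≠ v * u) (yc : ∀ u ∈ T, y * u = u * y → u ∈ zpowers z)
    (hE : ∀ g, ∃ u ∈ T, ∃ η ∈ zpowers y, g = u * η) {n : ℕ} (τ : Representation ℂ E (Fin n → ℂ))
    (hτ : τ.IsIrreducible) (sz : ∑ x : zpowers z, τ x = 0) (sy : ∑ x : zpowers y, τ x = 0) : False := by
  have := Fact.mk hr
  have := Fact.mk hp
  have hχ : IsIrrCharacter E τ.character := ⟨n, τ, hτ, rfl⟩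
  obtain ⟨d, d0, hd⟩ := irr_deg hχ
  have cz : Nat.card (zpowers z) = r := by rw [Nat.card_zpowers, hz]
  have cy : Nat.card (zpowers y) = p := by rw [Nat.card_zpowers, hy]
  have zT' : zpowers z ≤ T := zpowers_le_of_mem zT
  have hZ : ∀ u ∈ T, (∀ v ∈ T, v * u = u * v) → u ∈ zpowers z := fun u hu h => by_contra fun hn => by
    obtain ⟨a, ha, b, hb, ab⟩ := na
    have h1 : (zpowers z).subgroupOf T < center T := lt_of_le_of_ne (fun x hx => mem_center_iff.2 fun g =>
      Subtype.ext (mem_centralizer_singleton_iff.1 (zpowers_le_of_mem (H := centralizer {(g : E)})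
        (mem_centralizer_singleton_iff.2 (zc g g.2).symm) hx)).symm) fun e =>
      hn (e.ge (mem_center_iff.2 fun g => Subtype.ext (h g g.2) : (⟨u, hu⟩ : T) ∈ center T))
    have h2 := card_lt h1
    rw [Nat.card_congr (subgroupOfEquivOfLe zT').toEquiv, cz] at h2
    obtain ⟨k, -, hk⟩ := (Nat.dvd_prime_pow hr).1 (hT ▸ (center T).card_subgroup_dvd_card)
    have h3 : 1 < k := (Nat.pow_lt_pow_iff_right hr.one_lt).1 (by rwa [pow_one, ← hk])
    have h4 := (center T).card_mul_index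
    rw [hk, hT, show k = 2 + (k - 2) by omega, pow_add, mul_assoc, pow_succ r 2, mul_right_inj'
      (pow_ne_zero _ hr.ne_zero)] at h4
    have : IsCyclic (T ⧸ center T) := isCyclic_of_card_dvd_prime (p := r) (Dvd.intro_left _ h4)
    exact ab (congrArg Subtype.val (commutative_of_cyclic_center_quotient (QuotientGroup.mk' (center T))
      (by simp) ⟨a, ha⟩ ⟨b, hb⟩))
  have yz : y * z = z * y := by_contra fun hn => by
    have := fl0 τ (zpowers z) (zpowers y) (fun a ha β hβ => hZ _ (hN.conj_mem _ (zT' hβ) a) fun v hv => by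
        have := mem_centralizer_singleton_iff.1 (zpowers_le_of_mem (H := centralizer {a⁻¹ * v * a})
          (mem_centralizer_singleton_iff.2 (zc _ (hN.conj_mem' v hv a)).symm) hβ)
        calc v * (a * β * a⁻¹) = a * (a⁻¹ * v * a * β) * a⁻¹ := by group
          _ = _ := by rw [← this]; group)
      (fun a ha a1 β hβ e => by_contra fun b1 => hn (mem_centralizer_singleton_iff.1
        (zp_prime (hz ▸ hr) hβ b1 (W := centralizer {y}) (mem_centralizer_singleton_iff.2
          (mem_centralizer_singleton_iff.1 (zp_prime (hy ▸ hp) ha a1 (W := centralizer {β})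
            (mem_centralizer_singleton_iff.2 e))).symm))).symm) sy
    have h1 := congrArg (LinearMap.trace ℂ _) (sz.symm.trans this)
    rw [map_zero, ← nsmul_one, map_nsmul, ← τ.map_one, cz, show LinearMap.trace ℂ _ (τ 1) = d from hd] at h1
    simp [hr.ne_zero, d0.ne'] at h1
  have zc' : ∀ w ∈ zpowers z, ∀ g, g * w = w * g := fun w hw g => by
    obtain ⟨u, hu, η, hη, rfl⟩ := hE g
    exact (mem_centralizer_singleton_iff.1 (zpowers_le_of_mem (H := centralizer {u * η})
      (mem_centralizer_singleton_iff.2 ((show Commute z u from (zc u hu).symm).mul_right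
        (mem_centralizer_singleton_iff.1 (zpowers_le_of_mem (H := centralizer {z})
          (mem_centralizer_singleton_iff.2 yz) hη)).symm).eq) hw)).symm
  have hζ : ∀ w ∈ zpowers z, ∃ ζ : ℂ, Complex.normSq ζ = 1 ∧ (w ≠ 1 → ζ ≠ 1) ∧
      ∀ g, τ.character (g * w) = ζ * τ.character g := fun w hw => by
    obtain ⟨c, hc⟩ := sum_char_mul hχ {w} fun g k hk => by
      rw [mem_singleton.1 hk, zc' w hw g, mul_inv_cancel_right]; exact mem_singleton_self w
    simp only [sum_singleton] at hc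
    have h1 : ∀ i : ℕ, τ.character (w ^ i) = c ^ i * d := fun i => by
      induction i with
      | zero => simpa using hd
      | succ i ih => rw [pow_succ, hc, ih]; ring
    have d1 : (d : ℂ) ≠ 0 := Nat.cast_ne_zero.2 d0.ne'
    refine ⟨c, ?_, fun w1 e => ?_, hc⟩
    · have := h1 (orderOf w)
      rw [pow_orderOf_eq_one, hd, eq_comm, mul_eq_right₀ d1] at this
      rw [Complex.normSq_eq_norm_sq, Complex.norm_eq_one_of_pow_eq_one this (orderOf_pos w).ne', one_pow]
    · have h2 := congrArg (LinearMap.trace ℂ _) sz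
      rw [map_sum, map_zero, sum_congr rfl (g := fun _ => (d : ℂ)) fun x _ => by
        obtain ⟨i, hi⟩ := mem_powers_iff_mem_zpowers.2 (zpowers_le_of_mem (zp_prime (hz ▸ hr) hw w1
          (mem_zpowers w)) x.2)
        rw [← hi]
        exact (h1 i).trans (by rw [e, one_pow, one_mul])] at h2
      simp [d0.ne'] at h2
  have : (zpowers z).Normal := ⟨fun w hw g => by rwa [zc' w hw g, mul_inv_cancel_right]⟩
  let π := QuotientGroup.mk' (zpowers z)
  have h0 : ∀ u ∈ T, u ∉ zpowers z → τ.character u = 0 := fun u hu hn => by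
    obtain ⟨v, hv, e⟩ : ∃ v ∈ T, v * u ≠ u * v := by
      by_contra! h
      exact hn (hZ u hu h)
    have h1 : Nat.card (T ⧸ (zpowers z).subgroupOf T) = r ^ 2 := by
      have := ((zpowers z).subgroupOf T).card_mul_index
      rw [Nat.card_congr (subgroupOfEquivOfLe zT').toEquiv, cz, hT, pow_succ' r 2, mul_right_inj' hr.ne_zero] at this
      exact this
    have h2 := QuotientGroup.eq.1 (IsPGroup.commutative_of_card_eq_prime_sq h1
      (QuotientGroup.mk ⟨u, hu⟩) (QuotientGroup.mk ⟨v, hv⟩))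
    replace h2 : (u * v)⁻¹ * (v * u) ∈ zpowers z := h2
    obtain ⟨ζ, -, h3, h4⟩ := hζ _ h2
    have h5 := h4 u
    rw [show u * ((u * v)⁻¹ * (v * u)) = v * u * v⁻¹ by
      rw [eq_mul_inv_iff_mul_eq, mul_assoc, ← zc' _ h2 v]; group, τ.char_conj] at h5
    exact (mul_left_eq_self₀.1 h5.symm).resolve_left (h3 fun e' => e (inv_mul_eq_one.1 e').symm)
  have h1 : ∀ η ∈ zpowers y, η ≠ 1 → ∀ u ∈ T,
      Complex.normSq (τ.character (u * η)) = Complex.normSq (τ.character η) := fun η hη η1 u hu => by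
    have hN' := hN.map π (QuotientGroup.mk'_surjective _)
    obtain ⟨⟨_, v, hv, rfl⟩, e⟩ := Finite.surjective_of_injective (f := fun x : T.map π =>
      (⟨x * (π η * (x : E ⧸ zpowers z)⁻¹ * (π η)⁻¹), mul_mem x.2 (hN'.conj_mem _ (inv_mem x.2) _)⟩ : T.map π)) (by
        rintro ⟨_, a, ha, rfl⟩ ⟨_, b, hb, rfl⟩ e
        have e1 := Subtype.ext_iff.1 e
        simp only [← map_mul, ← map_inv] at e1
        have e2 : (a * (η * a⁻¹ * η⁻¹))⁻¹ * (b * (η * b⁻¹ * η⁻¹)) ∈ zpowers z := QuotientGroup.eq.1 e1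
        generalize hw : (a * (η * a⁻¹ * η⁻¹))⁻¹ * (b * (η * b⁻¹ * η⁻¹)) = w at e2
        have e3 : a⁻¹ * b * η * (a⁻¹ * b)⁻¹ = η * w := by
          calc _ = a⁻¹ * (a * (η * a⁻¹ * η⁻¹) * w * (η * a)) := by rw [← hw]; group
            _ = _ := by rw [mul_assoc _ w, ← zc' w e2]; group
        have e4 : η ^ p = 1 := by rw [← cy]; exact congrArg Subtype.val (pow_card_eq_one' (x := (⟨η, hη⟩ : zpowers y)))
        have e5 : w ^ p = 1 := by
          have := congrArg (· ^ p) e3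
          simpa only [conj_pow, e4, mul_one, mul_inv_cancel, one_mul, eq_comm,
            (show Commute η w from zc' w e2 η).mul_pow] using this
        have e6 : w = 1 := orderOf_eq_one_iff.1 (Nat.eq_one_of_dvd_coprimes ((Nat.coprime_primes hr hp).2 rp)
          (cz ▸ orderOf_dvd_natCard _ e2) (orderOf_dvd_of_pow_eq_one e5))
        rw [e6, mul_one, mul_inv_eq_iff_eq_mul] at e3
        exact Subtype.ext (QuotientGroup.eq.2 (yc _ (mul_mem (inv_mem ha) hb) (mem_centralizer_singleton_iff.1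
          (zp_prime (hy ▸ hp) hη η1 (W := centralizer {a⁻¹ * b}) (mem_centralizer_singleton_iff.2 e3.symm))))))
      ⟨π u, u, hu, rfl⟩
    have e1 := Subtype.ext_iff.1 e
    simp only [← map_mul, ← map_inv] at e1
    have e2 : (v * (η * v⁻¹ * η⁻¹))⁻¹ * u ∈ zpowers z := QuotientGroup.eq.1 e1
    obtain ⟨ζ, h3, -, h4⟩ := hζ _ e2
    rw [show u * η = v * η * v⁻¹ * ((v * (η * v⁻¹ * η⁻¹))⁻¹ * u) by
      rw [← inv_mul_cancel_right (v * η * v⁻¹) η, mul_assoc _ η, zc' _ e2 η]; group, h4, τ.char_conj, map_mul,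
      h3, one_mul]
  have yT : ∀ η ∈ zpowers y, η ∈ T → η = 1 := fun η h1 h2 => orderOf_eq_one_iff.1 (Nat.eq_one_of_dvd_coprimes
    (((Nat.coprime_primes hr hp).2 rp).pow_left 3) (hT ▸ orderOf_dvd_natCard _ h2) (cy ▸ orderOf_dvd_natCard _ h1))
  have b : Function.Bijective fun x : zpowers y × T => (x.2 : E) * x.1 := ⟨fun x x' e => by
    have e1 : (x'.2 : E)⁻¹ * x.2 = x'.1 * (x.1 : E)⁻¹ := by
      rw [inv_mul_eq_iff_eq_mul, ← mul_assoc, ← show (x.2 : E) * x.1 = x'.2 * x'.1 from e, mul_inv_cancel_right]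
    have e2 := yT _ (mul_mem x'.1.2 (inv_mem x.1.2)) (e1 ▸ mul_mem (inv_mem x'.2.2) x.2.2)
    exact Prod.ext (Subtype.ext (mul_inv_eq_one.1 e2).symm) (Subtype.ext (inv_mul_eq_one.1 (e1.trans e2)).symm),
    fun g => let ⟨u, hu, η, hη, e⟩ := hE g; ⟨(⟨η, hη⟩, ⟨u, hu⟩), e.symm⟩⟩
  have h2 : ∑ u : T, Complex.normSq (τ.character u) = r * d ^ 2 := by
    rw [← sum_subset (subset_univ (univ.filter fun u : T => (u : E) ∈ zpowers z)) fun u _ h => by
      rw [h0 u u.2 (by simpa using h), map_zero], sum_congr rfl (g := fun _ => (d : ℝ) ^ 2) fun u hu => by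
        obtain ⟨ζ, h3, -, h4⟩ := hζ _ (mem_filter.1 hu).2
        rw [← one_mul (u : E), h4, hd, map_mul, h3, one_mul, Complex.normSq_natCast, sq], sum_const,
      ← Fintype.card_subtype, ← Nat.card_eq_fintype_card, nsmul_eq_mul,
      show Nat.card {u : T // (u : E) ∈ zpowers z} = r from (Nat.card_congr (subgroupOfEquivOfLe zT').toEquiv).trans cz]
  obtain ⟨m, hm⟩ := ch_inner (ch_comp (ch_irr hχ) T.subtype) (ch_comp (ch_irr hχ) T.subtype)
  rw [classInner_self_eq, hT] at hm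
  have r0 : (0 : ℝ) < r := by exact_mod_cast hr.pos
  have h3 : (d : ℝ) ^ 2 = r ^ 2 * m := by
    have : ((r ^ 3 : ℕ) : ℝ)⁻¹ * (r * d ^ 2) = m := by rw [← h2]; exact_mod_cast hm
    rw [← this]; push_cast; field_simp
  have m1 : (1 : ℝ) ≤ m := by
    rw [Nat.one_le_cast, Nat.one_le_iff_ne_zero]
    rintro rfl
    simp [d0.ne'] at h3
  have h4 := classInner_irr hχ hχ
  rw [if_pos rfl, classInner_self_eq, ← b.sum_comp, Fintype.sum_prod_type, ← add_sum_erase _ _ (mem_univ 1),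
    sum_congr rfl (s₁ := univ.erase 1) fun (η : zpowers y) hη => sum_congr rfl fun (u : T) _ =>
      h1 η η.2 (fun e => (mem_erase.1 hη).1 (Subtype.ext e)) u u.2, ← Nat.card_eq_of_bijective _ b, Nat.card_prod] at h4
  simp only [OneMemClass.coe_one, mul_one, h2, sum_const, card_univ, ← Nat.card_eq_fintype_card, hT, cy,
    nsmul_eq_mul, ← mul_sum] at h4
  have h5 := congrArg (LinearMap.trace ℂ _) sy
  rw [map_sum, map_zero, ← add_sum_erase _ _ (mem_univ 1), add_eq_zero_iff_neg_eq] at h5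
  have h6 : (d : ℝ) ≤ ∑ η ∈ univ.erase (1 : zpowers y), ‖τ.character η‖ := by
    refine le_trans ?_ (norm_sum_le _ _)
    rw [← show -τ.character 1 = ∑ η ∈ univ.erase (1 : zpowers y), τ.character η from h5, hd, norm_neg, Complex.norm_natCast]
  have h7 := sq_sum_le_card_mul_sum_sq (s := univ.erase (1 : zpowers y)) (f := fun η => ‖τ.character η‖)
  simp only [← Complex.normSq_eq_norm_sq] at h7
  rw [card_erase_of_mem (mem_univ _), card_univ, ← Nat.card_eq_fintype_card, cy, Nat.cast_sub hp.one_le] at h7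
  generalize ∑ η ∈ univ.erase (1 : zpowers y), Complex.normSq (τ.character η) = S at h4 h7
  have p0 : (1 : ℝ) < p := by exact_mod_cast hp.one_lt
  have h8 : S = p - m := by
    have : ((p * r ^ 3 : ℕ) : ℝ)⁻¹ * (r * d ^ 2 + (r ^ 3 : ℕ) * S) = 1 := by exact_mod_cast h4
    rw [h3, inv_mul_eq_one₀ (Nat.cast_ne_zero.2 (mul_pos hp.pos (pow_pos hr.pos 3)).ne')] at this
    push_cast at this
    exact mul_left_cancel₀ (pow_ne_zero 3 r0.ne') (by linarith)
  have h9 : r + 1 ≤ p := by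
    have : (r : ℝ) ^ 2 ≤ (p - 1) ^ 2 := by
      have := pow_le_pow_left₀ (by positivity) h6 2
      push_cast at h7
      nlinarith
    have := (pow_le_pow_iff_left₀ r0.le (by linarith) two_ne_zero).1 this
    exact_mod_cast (show (r : ℝ) + 1 ≤ p by linarith)
  have h10 := (pgroup_zpowers (k := ConjAct.toConjAct y) (p := p) (n := 1) (by
    rw [pow_one, ← map_pow, ← hy, pow_orderOf_eq_one, map_one])).card_modEq_card_fixedPoints T
  rw [hT, show Nat.card (fixedPoints (zpowers (ConjAct.toConjAct y)) T) = r from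
    (Nat.card_congr ((Equiv.subtypeEquivRight fun u : T => ⟨fun h => yc u u.2 (mul_inv_eq_iff_eq_mul.1
      (congrArg Subtype.val (h ⟨_, mem_zpowers _⟩))), fun h g => Subtype.ext (mul_inv_eq_iff_eq_mul.2
        (zc' _ h _))⟩).trans (subgroupOfEquivOfLe zT').toEquiv)).trans cz] at h10
  have h11 : (p : ℤ) ∣ r * ((r - 1) * (r + 1)) := by
    convert h10.symm.dvd using 1; push_cast; ring
  have hp' := Nat.prime_iff_prime_int.1 hp
  have := hr.two_le
  obtain ⟨i, hi⟩ := hr.odd_of_ne_two r2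
  obtain ⟨j, hj⟩ := hp.odd_of_ne_two p2
  rcases hp'.dvd_or_dvd h11 with h | h
  · have := Int.le_of_dvd (by omega) h; omega
  rcases hp'.dvd_or_dvd h with h | h
  · have := Int.le_of_dvd (by omega) h; omega
  · have := Int.le_of_dvd (by omega) h; omega

theorem weil {X : Type*} [Group X] [Finite X] {K T : Subgroup X} {z y : X} {r p : ℕ} (hr : r.Prime)
    (hp : p.Prime) (r2 : r ≠ 2) (p2 : p ≠ 2) (rp : r ≠ p) (hK : ∀ k ∈ K, ∀ l ∈ K, k * l = l * k) (K1 : K ≠ ⊥)
    (TK : T ≤ normalizer (K : Set X)) (yK : y ∈ normalizer (K : Set X)) (yT : y ∈ normalizer (T : Set X))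
    (hT : Nat.card T = r ^ 3) (zT : z ∈ T) (hz : orderOf z = r) (hy : orderOf y = p)
    (zc : ∀ u ∈ T, u * z = z * u) (na : ∃ u ∈ T, ∃ v ∈ T, u * v ≠ v * u)
    (yc : ∀ u ∈ T, y * u = u * y → u ∈ zpowers z) (fz : ∀ k ∈ K, z * k = k * z → k = 1)
    (fy : ∀ k ∈ K, y * k = k * y → k = 1) : False := by
  have hy' : zpowers y ≤ normalizer (T : Set X) := zpowers_le_of_mem yT
  have hE : zpowers y ⊔ T ≤ normalizer (K : Set X) := sup_le (zpowers_le_of_mem yK) TK
  have := Fintype.ofFinite (zpowers y ⊔ T : Subgroup X)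
  letI : CommGroup K := { (inferInstance : Group K) with mul_comm := fun a b => Subtype.ext (hK _ a.2 _ b.2) }
  letI : MulDistribMulAction (zpowers y ⊔ T : Subgroup X) K := MulDistribMulAction.compHom K (inclusion hE)
  have : Nontrivial K := (nontrivial_iff_ne_bot K).2 K1
  have key : ∀ (q : ℕ) (x : (zpowers y ⊔ T : Subgroup X)), q.Prime → orderOf (x : X) = q →
      (∀ k ∈ K, x * k = k * x → k = 1) →
      (∀ k : K, (∀ g ∈ zpowers x, g • k = k) → k = 1) ∧ (Nat.card K).Coprime q := fun q x hq h1 h2 => by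
    have h3 : ∀ k : K, (∀ g ∈ zpowers x, g • k = k) → k = 1 := fun k hk =>
      Subtype.ext (h2 k k.2 (mul_inv_eq_iff_eq_mul.1 (congrArg Subtype.val (hk x (mem_zpowers x)))))
    have := Fact.mk hq
    have h4 := (pgroup_zpowers (k := x) (p := q) (n := 1) (by
      rw [pow_one, ← h1, orderOf_coe, pow_orderOf_eq_one])).card_modEq_card_fixedPoints K
    rw [show fixedPoints (zpowers x) K = {1} from Set.eq_singleton_iff_unique_mem.2 ⟨fun g => smul_one (g : (zpowers y ⊔ T : Subgroup X)),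
      fun k hk => h3 k fun g hg => hk ⟨g, hg⟩⟩, Nat.card_unique (α := ({1} : Set K))] at h4
    exact ⟨h3, Nat.coprime_of_mul_modEq_one 1 (by rwa [mul_one])⟩
  obtain ⟨z1, z2⟩ := key r ⟨z, mem_sup_right zT⟩ hr hz fz
  obtain ⟨y1, y2⟩ := key p ⟨y, mem_sup_left (mem_zpowers y)⟩ hp hy fy
  have hc : Nat.card (zpowers y ⊔ T : Subgroup X) ∣ r ^ 3 * p := by
    rw [← card_mul_index (T.subgroupOf _), Nat.card_congr (subgroupOfEquivOfLe le_sup_right).toEquiv, hT,
      ← relIndex, ← rel_eq le_sup_left fun g hg => by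
        obtain ⟨x, hx, o, ho, rfl⟩ := (mem_sup_nm hy').1 hg
        exact ⟨x, hx, by simpa using ho⟩, ← hy, ← Nat.card_zpowers]
    exact mul_dvd_mul_left _ (index_dvd_card _)
  obtain ⟨n, σ, n0, hσ⟩ := H4.OT.exists_rep (E := (zpowers y ⊔ T : Subgroup X)) (A := K)
    (((z2.pow_right 3).mul_right y2).coprime_dvd_right hc)
  obtain ⟨D⟩ := exists_decomp σ
  obtain ⟨i⟩ : Nonempty D.ι := by
    by_contra h
    rw [not_nonempty_iff] at h
    exact n0 (by simpa using D.finrank_eq)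
  have h1 : ∀ (H : Subgroup (zpowers y ⊔ T : Subgroup X)) [Fintype H], ∑ x : H, σ x = 0 → ∑ x : H, D.τ i x = 0 :=
    fun H _ h => LinearMap.ext fun w => by
      rw [← D.prj_inc_self i ((∑ x : H, D.τ i x) w), LinearMap.sum_apply, map_sum]
      simp only [D.inc_comm]
      rw [← LinearMap.sum_apply, h]
      simp
  have : (T.subgroupOf (zpowers y ⊔ T)).Normal := ⟨fun u hu g => nm (G := X) (sup_le hy' le_normalizer g.2) hu⟩
  obtain ⟨u, hu, v, hv, uv⟩ := na
  refine weil0 (T := T.subgroupOf _) (z := ⟨z, mem_sup_right zT⟩) (y := ⟨y, mem_sup_left (mem_zpowers y)⟩)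
    hr hp r2 p2 rp (by rwa [Nat.card_congr (subgroupOfEquivOfLe le_sup_right).toEquiv]) zT
    (by rwa [← orderOf_coe]) (by rwa [← orderOf_coe]) (fun u hu => Subtype.ext (zc u hu))
    ⟨⟨u, mem_sup_right hu⟩, hu, ⟨v, mem_sup_right hv⟩, hv, fun e => uv (congrArg Subtype.val e)⟩
    (fun u hu e => ?_) (fun g => ?_) (D.τ i) (D.irr i) (h1 _ (hσ _ z1)) (h1 _ (hσ _ y1))
  · obtain ⟨j, hj⟩ := yc u hu (congrArg Subtype.val e)
    exact ⟨j, Subtype.ext hj⟩
  · obtain ⟨_, ⟨j, rfl⟩, o, ho, e⟩ := (mem_sup_nm hy').1 g.2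
    have h2 := nm (zpow_mem yT j) ho
    exact ⟨⟨_, mem_sup_right h2⟩, h2, _, zpow_mem (mem_zpowers _) j, Subtype.ext (by simp [← e])⟩

end Cfsg.Agent.H7.BD
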