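import Mathlib

/-! Feit–Higman: the dihedral Hecke algebra computation. -/

set_option autoImplicit false

namespace Cfsg.Agent.H4.FH

open Finset

theorem exists_trace_of_sq {X : Type*} [Fintype X] [DecidableEq X] {e : Matrix X X ℂ} {γ : ℂ}
    (h : e * e = γ • e) : ∃ μ : ℕ, e.trace = μ * γ := by
  by_cases hγ : γ = 0
  · refine ⟨0, ?_⟩
    have : IsNilpotent e := ⟨2, by rw [pow_two, h, hγ, zero_smul]⟩
    simpa using (Matrix.isNilpotent_trace_of_isNilpotent this).eq_zero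
  · have h1 : IsIdempotentElem (Matrix.toLin' (γ⁻¹ • e)) := by
      show Matrix.toLin' (γ⁻¹ • e) ∘ₗ Matrix.toLin' (γ⁻¹ • e) = _
      rw [← Matrix.toLin'_mul, smul_mul_smul_comm, h, smul_smul, inv_mul_cancel_right₀ hγ]
    have h2 := (LinearMap.IsIdempotentElem.isProj_range _ h1).trace
    rw [Matrix.trace_toLin'_eq, Matrix.trace_smul, smul_eq_mul] at h2
    exact ⟨_, by rw [← h2, mul_comm, mul_inv_cancel_left₀ hγ]⟩

variable {A : Type*} [Ring A] [Algebra ℂ A]

/-- the commutator-like elements -/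
def kk (S T : A) (j : ℕ) : A := (S * T) ^ j - (T * S) ^ j

/-- the central element -/
def yy (S T : A) (α β : ℂ) : A := S * T + T * S - β • S - α • T + (α * β) • 1

section
variable {S T : A} {α β : ℂ} (hS : S * S = 1 + α • S) (hT : T * T = 1 + β • T)
include hS hT

theorem yy_mul : yy S T α β * (S * T) = S * T * (S * T) + 1 ∧
    S * T * yy S T α β = S * T * (S * T) + 1 ∧
    kk S T 1 * kk S T 1 = yy S T α β * yy S T α β - (α * β) • yy S T α β -
      (α ^ 2 + β ^ 2 + 4) • 1 := by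
  have hS' : ∀ x, S * (S * x) = x + α • (S * x) := fun x => by
    rw [← mul_assoc, hS, add_mul, one_mul, smul_mul_assoc]
  have hT' : ∀ x, T * (T * x) = x + β • (T * x) := fun x => by
    rw [← mul_assoc, hT, add_mul, one_mul, smul_mul_assoc]
  refine ⟨?_, ?_, ?_⟩ <;>
  · simp only [yy, kk, pow_one, mul_add, add_mul, mul_sub, sub_mul, smul_mul_assoc,
      mul_smul_comm, mul_assoc, hS, hT, hS', hT', mul_one, one_mul]
    module

omit hS hT in
theorem yy_symm : yy T S β α = yy S T α β := by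
  simp only [yy, mul_comm β α]; abel

theorem yy_comm (j : ℕ) : yy S T α β * kk S T j = kk S T j * yy S T α β := by
  have h1 : Commute (yy S T α β) (S * T) := (yy_mul hS hT).1.trans (yy_mul hS hT).2.1.symm
  have h2 : Commute (yy T S β α) (T * S) := (yy_mul hT hS).1.trans (yy_mul hT hS).2.1.symm
  rw [yy_symm] at h2
  exact (h1.pow_right j).sub_right (h2.pow_right j)

theorem yy_rec (j : ℕ) : yy S T α β * kk S T (j + 1) = kk S T (j + 2) + kk S T j := by
  have h2 := (yy_mul hT hS).1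
  rw [yy_symm] at h2
  simp only [kk]
  rw [mul_sub, pow_succ', pow_succ', ← mul_assoc _ (S * T), ← mul_assoc _ (T * S),
    (yy_mul hS hT).1, h2]
  simp only [pow_succ', add_mul, one_mul, mul_assoc]
  abel

theorem kk_refl {a b : ℕ} (h0 : kk S T a = -kk S T (b + 1)) (h1 : kk S T (a + 1) = -kk S T b) :
    ∀ i ≤ b + 1, kk S T (a + i) = -kk S T (b + 1 - i) := by
  intro i
  induction i using Nat.twoStepInduction with
  | zero => intro _; exact h0
  | one => intro _; exact h1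
  | more i ih1 ih2 =>
    intro hi
    have e1 := yy_rec hS hT (a + i)
    have e2 := yy_rec hS hT (b + 1 - (i + 2))
    rw [show b + 1 - (i + 2) + 1 = b + 1 - (i + 1) by omega,
      show b + 1 - (i + 2) + 2 = b + 1 - i by omega] at e2
    rw [add_assoc, ih2 (by omega), ih1 (by omega), mul_neg, e2, add_assoc] at e1
    rw [eq_sub_of_add_eq e1.symm]
    abel

theorem kk_refl_even {n : ℕ} (h : (S * T) ^ n = (T * S) ^ n) :
    ∀ j ≤ n, kk S T (2 * n - j) = -kk S T j := by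
  intro j hj
  have h0 : kk S T n = 0 := sub_eq_zero.2 h
  rcases n with _ | n
  · simp [kk, show j = 0 by omega]
  have := kk_refl hS hT (a := n + 1) (b := n) (by rw [h0, neg_zero])
    (eq_neg_of_add_eq_zero_left (by rw [← yy_rec hS hT, h0, mul_zero])) (n + 1 - j) (by omega)
  rwa [show n + 1 + (n + 1 - j) = 2 * (n + 1) - j by omega,
    show n + 1 - (n + 1 - j) = j by omega] at this

theorem kk_refl_odd {n : ℕ} (hαβ : α = β) (h : S * (T * S) ^ n = T * (S * T) ^ n) :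
    ∀ j ≤ n + 1, kk S T (2 * n + 1 - j) = -kk S T j := by
  intro j hj
  subst hαβ
  have h0 : kk S T (n + 1) = -kk S T n := by
    have e1 : (S * T) ^ (n + 1) = (T * S) ^ n + α • (T * (S * T) ^ n) := by
      rw [pow_succ', mul_assoc, ← h, ← mul_assoc, hS, add_mul, one_mul, smul_mul_assoc]
    have e2 : (T * S) ^ (n + 1) = (S * T) ^ n + α • (T * (S * T) ^ n) := by
      rw [pow_succ', mul_assoc, h, ← mul_assoc, hT, add_mul, one_mul, smul_mul_assoc]
    simp only [kk, e1, e2]; abel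
  have := kk_refl hS hT (a := n) (b := n) (by rw [h0, neg_neg]) h0 (n + 1 - j) (by omega)
  rwa [show n + (n + 1 - j) = 2 * n + 1 - j by omega,
    show n + 1 - (n + 1 - j) = j by omega] at this

theorem idem {m : ℕ} (hm : kk S T m = 0) (hm1 : kk S T (m - 1) = -kk S T 1) (hm2 : 2 ≤ m) {ζ : ℂ}
    (hζ : ζ ^ m = 1) (h2 : ζ ^ 2 ≠ 1) :
    (kk S T 1 * ∑ j ∈ range m, ζ ^ j • kk S T j) * (kk S T 1 * ∑ j ∈ range m, ζ ^ j • kk S T j) =
      (m * (α ^ 2 + β ^ 2 + 4 + α * β * (ζ + ζ⁻¹) - (ζ + ζ⁻¹) ^ 2) / (ζ - ζ⁻¹)) •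
        (kk S T 1 * ∑ j ∈ range m, ζ ^ j • kk S T j) := by
  have h0 : ζ ≠ 0 := by rintro rfl; rw [zero_pow (by omega)] at hζ; exact zero_ne_one hζ
  have h3 : ζ - ζ⁻¹ ≠ 0 := fun h => h2 (by
    rw [pow_two]; nth_rw 1 [sub_eq_zero.1 h]; exact inv_mul_cancel₀ h0)
  have hk0 : kk S T 0 = 0 := by simp [kk]
  have hz : yy S T α β * ∑ j ∈ range m, ζ ^ j • kk S T j =
      (ζ + ζ⁻¹) • ∑ j ∈ range m, ζ ^ j • kk S T j := by
    have key : ∀ n, yy S T α β * ∑ j ∈ range (n + 1), ζ ^ j • kk S T j =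
        (ζ + ζ⁻¹) • ∑ j ∈ range (n + 1), ζ ^ j • kk S T j + ζ ^ n • kk S T (n + 1) -
          ζ ^ (n + 1) • kk S T n - kk S T 1 := by
      intro n
      induction n with
      | zero => simp [hk0]
      | succ n ih =>
        rw [sum_range_succ, mul_add, ih, mul_smul_comm, yy_rec hS hT]
        have : ζ ^ n = ζ⁻¹ * ζ ^ (n + 1) := by rw [pow_succ', inv_mul_cancel_left₀ h0]
        rw [this]
        module
    obtain ⟨n, rfl⟩ : ∃ n, m = n + 1 := ⟨m - 1, by omega⟩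
    rw [key, hm, hζ, show kk S T n = -kk S T 1 from hm1]
    module
  generalize hzz : ∑ j ∈ range m, ζ ^ j • kk S T j = z at hz
  have hw : yy S T α β * (kk S T 1 * z) = (ζ + ζ⁻¹) • (kk S T 1 * z) := by
    rw [← mul_assoc, yy_comm hS hT, mul_assoc, hz, mul_smul_comm]
  generalize hww : kk S T 1 * z = w at hw ⊢
  have hU : ∀ j, kk S T j * w = ((ζ ^ j - ζ⁻¹ ^ j) / (ζ - ζ⁻¹)) • (kk S T 1 * w) := by
    intro j
    induction j using Nat.twoStepInduction with
    | zero => simp [hk0]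
    | one => simp [div_self h3]
    | more j ih1 ih2 =>
      rw [eq_sub_of_add_eq (yy_rec hS hT j).symm, sub_mul, yy_comm hS hT, mul_assoc, hw,
        mul_smul_comm, ih1, ih2, smul_smul, ← sub_smul]
      congr 1
      have : ζ * ζ⁻¹ = 1 := mul_inv_cancel₀ h0
      generalize ζ⁻¹ = η at *
      field_simp
      linear_combination (ζ ^ j - η ^ j) * this
  have hzw : z * w = (-m / (ζ - ζ⁻¹)) • (kk S T 1 * w) := by
    rw [← hzz, sum_mul, sum_congr rfl fun j _ => by rw [smul_mul_assoc, hU, smul_smul], ← sum_smul]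
    congr 1
    have e : ∀ j, ζ ^ j * ((ζ ^ j - ζ⁻¹ ^ j) / (ζ - ζ⁻¹)) = ((ζ ^ 2) ^ j - 1) / (ζ - ζ⁻¹) :=
      fun j => by
        rw [← mul_div_assoc, mul_sub, ← mul_pow, ← mul_pow, mul_inv_cancel₀ h0, one_pow, pow_two]
    rw [sum_congr rfl fun j _ => e j, ← sum_div, sum_sub_distrib, geom_sum_eq h2, ← pow_mul,
      mul_comm 2, pow_mul, hζ]
    simp
  nth_rw 1 [← hww]
  rw [mul_assoc, hzw, mul_smul_comm, ← mul_assoc, (yy_mul hS hT).2.2, sub_mul, sub_mul,
    mul_assoc, hw, mul_smul_comm, hw, smul_mul_assoc, hw, smul_mul_assoc, one_mul]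
  simp only [smul_smul, ← sub_smul]
  congr 1
  ring

end

theorem mult {X : Type*} [Fintype X] [DecidableEq X] {S T : Matrix X X ℂ} {α β : ℂ}
    (hS : S * S = 1 + α • S) (hT : T * T = 1 + β • T) {m : ℕ} (hm : 3 ≤ m)
    (hrefl : ∀ j, 2 * j ≤ m → kk S T (m - j) = -kk S T j)
    (htr : ∀ j, 2 ≤ j → 2 * j ≤ m → (kk S T 1 * kk S T j).trace = 0)
    (htr1 : (kk S T 1 * kk S T 1).trace = -2 * Fintype.card X) {ζ : ℂ}
    (hζ : ζ ^ m = 1) (h2 : ζ ^ 2 ≠ 1) :
    ∃ μ : ℕ, (μ : ℂ) * m * (α ^ 2 + β ^ 2 + 4 + α * β * (ζ + ζ⁻¹) - (ζ + ζ⁻¹) ^ 2) =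
      2 * Fintype.card X * (4 - (ζ + ζ⁻¹) ^ 2) := by
  have hk0 : kk S T 0 = 0 := by simp [kk]
  have h0 : ζ ≠ 0 := by rintro rfl; rw [zero_pow (by omega)] at hζ; exact zero_ne_one hζ
  have h3 : ζ - ζ⁻¹ ≠ 0 := fun h => h2 (by
    rw [pow_two]; nth_rw 1 [sub_eq_zero.1 h]; exact inv_mul_cancel₀ h0)
  obtain ⟨μ, hμ⟩ := exists_trace_of_sq (idem hS hT (m := m)
    (by simpa [hk0] using hrefl 0 (by omega)) (hrefl 1 (by omega)) (by omega) hζ h2)
  refine ⟨μ, ?_⟩
  obtain ⟨n, rfl⟩ : ∃ n, m = n + 3 := ⟨m - 3, by omega⟩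
  rw [mul_sum, Matrix.trace_sum, sum_range_succ, sum_range_succ', sum_range_succ',
    sum_eq_zero] at hμ
  · have e : kk S T (n + 2) = -kk S T 1 := hrefl 1 (by omega)
    have e2 : ζ ^ (n + 2) = ζ⁻¹ := eq_inv_of_mul_eq_one_left (by rw [← pow_succ, hζ])
    simp only [hk0, e, e2, mul_smul_comm, Matrix.trace_smul, mul_neg, Matrix.trace_neg, zero_add,
      htr1, smul_eq_mul, mul_zero, Matrix.trace_zero, pow_one] at hμ
    have : ζ * ζ⁻¹ = 1 := mul_inv_cancel₀ h0
    generalize ζ⁻¹ = η at *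
    field_simp at hμ
    linear_combination -hμ + 8 * (Fintype.card X : ℂ) * this
  · intro j hj
    rw [mem_range] at hj
    rw [mul_smul_comm, Matrix.trace_smul]
    by_cases h : 2 * (j + 1 + 1) ≤ n + 3
    · rw [htr _ (by omega) h, smul_zero]
    · have := hrefl (n + 1 - j) (by omega)
      rw [show n + 3 - (n + 1 - j) = j + 1 + 1 by omega] at this
      rw [this, mul_neg, Matrix.trace_neg, htr _ (by omega) (by omega), neg_zero, smul_zero]

end Cfsg.Agent.H4.FH
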