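import Mathlib

/-! Feit–Higman: the arithmetic. -/

set_option autoImplicit false

namespace Cfsg.Agent.H4.FH

open Real

theorem niven_nat {n : ℕ} (hn : 2 ≤ n) (h : ∃ r : ℚ, cos (2 * π / n) = r) :
    n = 2 ∨ n = 3 ∨ n = 4 ∨ n = 6 := by
  have h0 : (0 : ℝ) < n := by positivity
  have h2 : (2 : ℝ) ≤ n := by exact_mod_cast hn
  have := niven_angle_eq (θ := 2 * π / n) ⟨2 / n, by push_cast; ring⟩ h ⟨by positivity, by
    rw [div_le_iff₀ h0]; nlinarith [pi_pos]⟩
  have hp := pi_pos.ne'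
  simp only [Set.mem_insert_iff, Set.mem_singleton_iff] at this
  rcases this with h | h | h | h | h <;> field_simp at h
  · simp at h
  · have : n = 6 := by exact_mod_cast (by linarith : (n : ℝ) = 6)
    omega
  · have : n = 4 := by exact_mod_cast (by linarith : (n : ℝ) = 4)
    omega
  · have : n = 3 := by exact_mod_cast (by linarith : (n : ℝ) = 3)
    omega
  · have : n = 2 := by exact_mod_cast (by linarith : (n : ℝ) = 2)
    omega

/-- Sturm comparison for three-term recurrences -/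
theorem sturm {D x y : ℝ} (hD : 0 < D) (hxy : x < y) {a b : ℕ → ℝ} (ha0 : a 0 = 0) (ha1 : a 1 = 1)
    (hb0 : b 0 = 0) (hb1 : b 1 = 1) (ha : ∀ j, a (j + 2) = x * a (j + 1) - D * a j)
    (hb : ∀ j, b (j + 2) = y * b (j + 1) - D * b j) {n : ℕ}
    (hpos : ∀ j, j < n → 0 < a (j + 1)) (hn : 0 ≤ a (n + 1)) : 0 < b (n + 1) := by
  have key : ∀ j, j ≤ n → 0 < b (j + 1) ∧ 0 ≤ b (j + 1) * a j - b j * a (j + 1) := by
    intro j
    induction j with
    | zero => intro _; simp [hb1, ha0, hb0]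
    | succ j ih =>
      intro hj
      obtain ⟨h1, h2⟩ := ih (by omega)
      have h3 := hpos j (by omega)
      have h4 : 0 < b (j + 2) * a (j + 1) - b (j + 1) * a (j + 2) := by
        rw [ha, hb]
        nlinarith [mul_pos (sub_pos.2 hxy) (mul_pos h1 h3), mul_nonneg hD.le h2]
      have h5 : 0 ≤ a (j + 2) := by
        rcases eq_or_lt_of_le hj with rfl | h
        · exact hn
        · exact (hpos (j + 1) h).le
      refine ⟨?_, h4.le⟩
      by_contra h6
      nlinarith [mul_nonneg h1.le h5, mul_nonneg (neg_nonneg.2 (not_lt.1 h6)) h3.le]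
  exact (key n le_rfl).1

theorem rat_of_quad {D b c r : ℚ} (hD : 0 < D) (hb : 0 < b) (hc : 4 * D < c) {q : ℝ} (hq : 0 < q)
    (hq2 : q ^ 2 = D) {n : ℕ} (hn : 2 ≤ n) {x : ℝ} (hx : x = 2 * q * cos (π / n))
    (h : c + b * x - x ^ 2 = r * (4 * D - x ^ 2)) : ∃ u : ℚ, x = u := by
  by_contra hirr
  have hb' : (0 : ℝ) < b := by exact_mod_cast hb
  have hD' : (0 : ℝ) < D := by exact_mod_cast hD
  have hc' : 4 * (D : ℝ) < c := by exact_mod_cast hc
  have hr : r - 1 ≠ 0 := fun h1 => hirr ⟨(4 * D - c) / b, by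
    rw [sub_eq_zero.1 h1] at h
    push_cast at h ⊢
    field_simp
    linarith⟩
  have hr' : (r : ℝ) - 1 ≠ 0 := by exact_mod_cast hr
  obtain ⟨σ, hσ⟩ : ∃ σ : ℚ, σ = -b / (r - 1) := ⟨_, rfl⟩
  obtain ⟨p, hp⟩ : ∃ p : ℚ, p = (c - 4 * D * r) / (r - 1) := ⟨_, rfl⟩
  have hσ' : (σ : ℝ) * (r - 1) = -b := by rw [hσ]; push_cast; field_simp
  have hp' : (p : ℝ) * (r - 1) = c - 4 * D * r := by rw [hp]; push_cast; field_simp
  have h1 : x ^ 2 = σ * x - p := by
    apply mul_right_cancel₀ hr'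
    linear_combination h - x * hσ' + hp'
  have h2 : (σ - x) ^ 2 = σ * (σ - x) - p := by linear_combination h1
  have hn0 : (0 : ℝ) < n := by positivity
  have hn2 : (2 : ℝ) ≤ n := by exact_mod_cast hn
  have hθ : 0 < π / n := by positivity
  have hθ2 : π / n ≤ π / 2 := by gcongr
  have hs : 0 < sin (π / n) := sin_pos_of_pos_of_lt_pi hθ (by linarith [pi_pos])
  let a : ℕ → ℝ := fun j => q ^ j * sin (j * (π / n)) / (q * sin (π / n))
  have ha : ∀ j, a (j + 2) = x * a (j + 1) - D * a j := fun j => by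
    simp only [a]
    rw [hx, ← hq2, show ((j + 2 : ℕ) : ℝ) * (π / n) = (j + 1 : ℕ) * (π / n) + π / n by
      push_cast; ring, show (j : ℝ) * (π / n) = (j + 1 : ℕ) * (π / n) - π / n by push_cast; ring,
      sin_add, sin_sub]
    field_simp
    ring
  let f : ℕ → ℝ × ℝ := fun j => Nat.rec (0, 1) (fun _ z => (z.2, (x - σ) * z.2 - D * z.1)) j
  have key : ∀ j, ∃ u v : ℚ, a j = u + v * x ∧ (f j).1 = -(-1) ^ j * (u + v * (σ - x)) := by
    intro j
    induction j using Nat.twoStepInduction with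
    | zero => exact ⟨0, 0, by simp [a], by simp [f]⟩
    | one => exact ⟨1, 0, by simp [a, hs.ne', hq.ne'], by simp [f]⟩
    | more j ih1 ih2 =>
      obtain ⟨u, v, e1, e2⟩ := ih1
      obtain ⟨u', v', e3, e4⟩ := ih2
      refine ⟨-v' * p - D * u, u' + v' * σ - D * v, ?_, ?_⟩
      · rw [ha, e1, e3]; push_cast; linear_combination v' * h1
      · rw [show (f (j + 2)).1 = (x - σ) * (f (j + 1)).1 - D * (f j).1 from rfl, e2, e4]
        push_cast
        linear_combination -(-1) ^ j * v' * h2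
  have han : a n = 0 := by simp [a, mul_div_cancel₀ _ hn0.ne']
  have hfn : (f n).1 = 0 := by
    obtain ⟨u, v, e1, e2⟩ := key n
    rw [han] at e1
    have hv : v = 0 := by
      by_contra hv
      have : (v : ℝ) ≠ 0 := by exact_mod_cast hv
      exact hirr ⟨-u / v, by push_cast; field_simp; linarith⟩
    have hu : (u : ℝ) = 0 := by simpa [hv] using e1.symm
    rw [e2, hv, hu]; simp
  have hle : x - σ ≤ x := by
    by_contra hlt
    obtain ⟨k, rfl⟩ : ∃ k, n = k + 1 := ⟨n - 1, by omega⟩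
    refine (sturm hD' (not_le.1 hlt) (a := a) (b := fun j => (f j).1) (by simp [a])
      (by simp only [a, pow_one, Nat.cast_one, one_mul]; exact div_self (mul_pos hq hs).ne')
      rfl rfl ha (fun j => rfl) (n := k) (fun j hj => ?_)
      han.ge).ne' hfn
    refine div_pos (mul_pos (pow_pos hq _) (sin_pos_of_pos_of_lt_pi (by positivity) ?_))
      (mul_pos hq hs)
    have : ((j + 1 : ℕ) : ℝ) < (k + 1 : ℕ) := by exact_mod_cast (by omega)
    rw [← mul_div_assoc, div_lt_iff₀ hn0]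
    nlinarith [pi_pos]
  have hx0 : 0 ≤ x := by
    rw [hx]
    exact mul_nonneg (by positivity) (cos_nonneg_of_neg_pi_div_two_le_of_le (by linarith) hθ2)
  have hx2 : x ^ 2 < 4 * D := by
    rw [hx, ← hq2]
    nlinarith [sin_sq_add_cos_sq (π / n), mul_pos (pow_pos hq 2) (pow_pos hs 2)]
  have e : (p + 4 * D) * b + σ * (c - 4 * D) = (0 : ℝ) := by
    apply mul_right_cancel₀ hr'
    linear_combination b * hp' + (c - 4 * D) * hσ'
  have h3 : (0 : ℝ) ≤ σ := by linarith
  have h4 : (0 : ℝ) < p + 4 * D := by nlinarith [mul_nonneg hx0 h3]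
  nlinarith [mul_pos h4 hb', mul_nonneg h3 (sub_pos.2 hc').le]

theorem arith {s t : ℕ} (hs : 2 ≤ s) (ht : 2 ≤ t) {q : ℝ} (hq : 0 < q) (hq2 : q ^ 2 = s * t)
    {m : ℕ} (hm : 3 ≤ m) (hodd : Odd m → s = t)
    (h : ∀ j : ℕ, 0 < j → 2 * j < m → ∀ x : ℝ, x = 2 * q * cos (2 * π * j / m) → ∃ r : ℚ,
      (t * (s - 1) ^ 2 + s * (t - 1) ^ 2 + 4 * (s * t)) + (s - 1) * (t - 1) * x - x ^ 2 =
        r * (4 * (s * t) - x ^ 2)) : m = 3 ∨ m = 4 ∨ m = 6 ∨ m = 8 := by
  have hs' : (2 : ℝ) ≤ s := by exact_mod_cast hs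
  have ht' : (2 : ℝ) ≤ t := by exact_mod_cast ht
  obtain ⟨r, hr⟩ := h 1 one_pos (by omega) _ rfl
  rw [Nat.cast_one, mul_one] at hr
  rcases Nat.even_or_odd' m with ⟨n, rfl | rfl⟩
  · have hsq : (2 : ℚ) ≤ s := by exact_mod_cast hs
    have htq : (2 : ℚ) ≤ t := by exact_mod_cast ht
    have hn0 : (0 : ℝ) < n := by exact_mod_cast (by omega : 0 < n)
    have e : 2 * π / ((2 * n : ℕ) : ℝ) = π / n := by push_cast; field_simp
    rw [e] at hr
    obtain ⟨u, hu⟩ := rat_of_quad (D := s * t) (b := (s - 1) * (t - 1))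
      (c := t * (s - 1) ^ 2 + s * (t - 1) ^ 2 + 4 * (s * t)) (r := r) (by positivity)
      (mul_pos (by linarith) (by linarith)) (by
        have : (0 : ℚ) < s - 1 := by linarith
        have : (0 : ℚ) < t - 1 := by linarith
        have : (0 : ℚ) < t * (s - 1) ^ 2 + s * (t - 1) ^ 2 := by positivity
        linarith) hq (by rw [hq2]; push_cast; rfl) (n := n) (by omega) rfl
      (by push_cast; exact hr)
    have h1 := niven_nat (n := n) (by omega) ⟨u ^ 2 / (2 * (s * t)) - 1, by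
      rw [mul_div_assoc, cos_two_mul]
      push_cast
      rw [← hu, ← hq2]
      field_simp⟩
    rcases h1 with rfl | rfl | rfl | rfl
    · simp
    · simp
    · simp
    · exfalso
      obtain ⟨r', hr'⟩ := h 2 two_pos (by norm_num) q (by
        rw [show 2 * π * ((2 : ℕ) : ℝ) / ((2 * 6 : ℕ) : ℝ) = π / 3 by push_cast; ring,
          cos_pi_div_three]; ring)
      rw [show ((6 : ℕ) : ℝ) = 6 by norm_num, cos_pi_div_six] at hu
      have h3 : (s - 1 : ℝ) * (t - 1) ≠ 0 := mul_ne_zero (by linarith) (by linarith)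
      obtain ⟨v, hv⟩ : ∃ v : ℚ, q = v := ⟨(r' * (3 * (s * t)) -
          (t * (s - 1) ^ 2 + s * (t - 1) ^ 2 + 3 * (s * t))) / ((s - 1) * (t - 1)), by
        push_cast
        rw [eq_div_iff h3]
        linear_combination hr' + (1 - r') * hq2⟩
      refine Nat.prime_three.irrational_sqrt ⟨u / v, ?_⟩
      push_cast
      rw [← hu, ← hv]
      field_simp
  · obtain rfl := hodd ⟨n, rfl⟩
    have hqs : q = s := by
      rw [← pow_two] at hq2
      exact (pow_left_inj₀ hq.le (by positivity) two_ne_zero).1 hq2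
    subst hqs
    have hm0 : (3 : ℝ) ≤ (2 * n + 1 : ℕ) := by exact_mod_cast hm
    have hsin : 0 < sin (2 * π / (2 * n + 1 : ℕ)) := sin_pos_of_pos_of_lt_pi (by positivity) (by
      rw [div_lt_iff₀ (by positivity)]; nlinarith [pi_pos])
    have hcos := sin_sq_add_cos_sq (2 * π / (2 * n + 1 : ℕ))
    have h1 := niven_nat (n := 2 * n + 1) (by omega) (by
      generalize cos (2 * π / (2 * n + 1 : ℕ)) = y at *
      have h2 : 1 + y ≠ 0 := fun h0 => by
        rw [show y = -1 by linarith] at hcos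
        nlinarith
      have h3 : 1 + (s : ℝ) ^ 2 - 2 * s * y = r * (2 * s - 2 * s * y) := by
        apply mul_left_cancel₀ (mul_ne_zero hq.ne' h2)
        linear_combination hr / 2
      have h4 : (r : ℝ) - 1 ≠ 0 := fun h0 => by
        rw [show (r : ℝ) = 1 by linarith] at h3
        nlinarith
      refine ⟨(2 * s * r - 1 - s ^ 2) / (2 * s * (r - 1)), ?_⟩
      push_cast
      field_simp
      linear_combination h3)
    omega

end Cfsg.Agent.H4.FH
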