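import Cfsg.Prelude.Def_LieExceptional

/-! Feit–Higman: Bruhat cells of a BN-pair and their adjacency matrices. -/

set_option autoImplicit false

namespace Cfsg.Agent.H4.FH

variable {G : Type*} [Group G] (P : BNPair G)

/-- `B ⊓ N` inside `N` -/
abbrev HH : Subgroup P.N := (P.B ⊓ P.N).subgroupOf P.N

instance instNormalHH : (HH P).Normal :=
  ⟨fun t ht n => ⟨P.conj_mem n n.2 t ht, (n * t * n⁻¹).2⟩⟩

/-- the Weyl group -/
abbrev WW := P.N ⧸ HH P

theorem mk_eq_mk {n n' : P.N} : (n : WW P) = n' ↔ (n : G)⁻¹ * n' ∈ P.B := by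
  rw [QuotientGroup.eq]
  exact ⟨fun h => h.1, fun h => ⟨h, (n⁻¹ * n').2⟩⟩

/-- Bruhat cells -/
def D (w : WW P) (g : G) : Prop :=
  ∃ n : P.N, (n : WW P) = w ∧ ∃ b ∈ P.B, ∃ b' ∈ P.B, g = b * n * b'

/-- the distinguished generators of the Weyl group -/
def Sb (g : WW P) : Prop := ∃ n : P.N, (n : G) ∈ P.S ∧ (n : WW P) = g

variable {P}

theorem D.left {w : WW P} {g b : G} (h : D P w g) (hb : b ∈ P.B) : D P w (b * g) := by
  obtain ⟨n, hn, c, hc, c', hc', rfl⟩ := h
  exact ⟨n, hn, b * c, P.B.mul_mem hb hc, c', hc', by group⟩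

theorem D.right {w : WW P} {g b : G} (h : D P w g) (hb : b ∈ P.B) : D P w (g * b) := by
  obtain ⟨n, hn, c, hc, c', hc', rfl⟩ := h
  exact ⟨n, hn, c, hc, c' * b, P.B.mul_mem hc' hb, by group⟩

theorem D.rep {n : P.N} {g : G} (h : D P n g) : ∃ b ∈ P.B, ∃ b' ∈ P.B, g = b * n * b' := by
  obtain ⟨n', hn, c, hc, c', hc', rfl⟩ := h
  exact ⟨c, hc, _, P.B.mul_mem ((mk_eq_mk P).1 hn.symm) hc', by group⟩

theorem D_mk (n : P.N) : D P n n := ⟨n, rfl, 1, P.B.one_mem, 1, P.B.one_mem, by simp⟩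

theorem D_one {g : G} : D P 1 g ↔ g ∈ P.B := by
  refine ⟨fun h => ?_, fun h => by simpa using (D_mk 1).left h⟩
  obtain ⟨b, hb, b', hb', rfl⟩ := D.rep (n := 1) h
  simpa using P.B.mul_mem hb hb'

theorem D.eq_one {w : WW P} {g : G} (h : D P w g) (hg : g ∈ P.B) : w = 1 := by
  obtain ⟨n, rfl, c, hc, c', hc', rfl⟩ := h
  rw [P.B.mul_mem_cancel_right hc', P.B.mul_mem_cancel_left hc] at hg
  exact (QuotientGroup.eq_one_iff n).2 ⟨hg, n.2⟩

theorem D.trans {w w' : WW P} {x y : G} (h1 : D P w x) (h2 : D P w' x) (h3 : D P w y) :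
    D P w' y := by
  induction w using QuotientGroup.induction_on with | H n =>
  obtain ⟨b, hb, b', hb', rfl⟩ := h1.rep
  obtain ⟨c, hc, c', hc', rfl⟩ := h3.rep
  have := (h2.left (P.B.mul_mem hc (P.B.inv_mem hb))).right (P.B.mul_mem (P.B.inv_mem hb') hc')
  simpa [mul_assoc] using this

theorem D.inv {w : WW P} {g : G} (h : D P w g) : D P w⁻¹ g⁻¹ := by
  obtain ⟨n, rfl, c, hc, c', hc', rfl⟩ := h
  exact ⟨n⁻¹, rfl, _, P.B.inv_mem hc', _, P.B.inv_mem hc, by simp [mul_assoc]⟩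

theorem D.split {v w : WW P} {z : G} (h : D P (v * w) z) :
    ∃ x y, D P v x ∧ D P w y ∧ z = x * y := by
  induction v using QuotientGroup.induction_on with | H n =>
  induction w using QuotientGroup.induction_on with | H n' =>
  obtain ⟨b, hb, b', hb', rfl⟩ := D.rep (n := n * n') h
  exact ⟨_, _, (D_mk n).left hb, (D_mk n').right hb', by simp [mul_assoc]⟩

theorem Sb.sq {g : WW P} (hg : Sb P g) : g * g = 1 := by
  obtain ⟨n, hn, rfl⟩ := hg
  exact (QuotientGroup.eq_one_iff (n * n)).2 ⟨P.sq_mem n hn, (n * n).2⟩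

theorem Sb.inv {g : WW P} (hg : Sb P g) : g⁻¹ = g := inv_eq_of_mul_eq_one_left hg.sq

theorem Sb.ne_one {g : WW P} (hg : Sb P g) : g ≠ 1 := by
  obtain ⟨n, hn, rfl⟩ := hg
  intro h
  have hB : (n : G) ∈ P.B := ((QuotientGroup.eq_one_iff n).1 h).1
  apply P.conj_ne n hn
  ext x
  exact ⟨by rintro ⟨b, hb, rfl⟩; exact P.B.mul_mem (P.B.mul_mem hB hb) hB, fun hx =>
    ⟨(n : G)⁻¹ * x * (n : G)⁻¹, P.B.mul_mem (P.B.mul_mem (P.B.inv_mem hB) hx) (P.B.inv_mem hB),
      by simp [mul_assoc]⟩⟩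

theorem D.mul {g w : WW P} (hg : Sb P g) {x y : G} (hx : D P g x) (hy : D P w y) :
    D P (g * w) (x * y) ∨ D P w (x * y) := by
  obtain ⟨s, hs, rfl⟩ := hg
  induction w using QuotientGroup.induction_on with | H n =>
  obtain ⟨b, hb, b', hb', rfl⟩ := hx.rep
  obtain ⟨c, hc, c', hc', rfl⟩ := hy.rep
  have e : b * s * b' * (c * n * c') = b * (s * (b' * c) * n) * c' := by group
  rw [e]
  refine (P.mul_mem_union s hs n n.2 _ (P.B.mul_mem hb' hc)).imp (fun h => ?_) fun h => ?_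
  · obtain ⟨d, hd, d', hd', e⟩ := DoubleCoset.mem_doubleCoset.1 h
    exact (D.left ⟨s * n, rfl, d, hd, d', hd', e⟩ hb).right hc'
  · obtain ⟨d, hd, d', hd', e⟩ := DoubleCoset.mem_doubleCoset.1 h
    exact (D.left ⟨n, rfl, d, hd, d', hd', e⟩ hb).right hc'

theorem D.mul' {g w : WW P} (hg : Sb P g) {x y : G} (hx : D P w x) (hy : D P g y) :
    D P (w * g) (x * y) ∨ D P w (x * y) := by
  refine (D.mul hg (hg.inv ▸ hy.inv) hx.inv).imp (fun h => ?_) fun h => ?_
  · simpa [hg.inv] using h.inv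
  · simpa using h.inv

/-- a length function -/
structure Len (P : BNPair G) (l : WW P → ℕ) : Prop where
  zero : ∀ w, l w = 0 → w = 1
  left : ∀ g, Sb P g → ∀ w, l (g * w) ≤ l w + 1
  right : ∀ g, Sb P g → ∀ w, l (w * g) ≤ l w + 1
  desc_left : ∀ w k, l w = k + 1 → ∃ g, Sb P g ∧ l (g * w) ≤ k
  desc_right : ∀ w k, l w = k + 1 → ∃ g, Sb P g ∧ l (w * g) ≤ k

variable {l : WW P → ℕ}

theorem Len.unique (hl : Len P l) {w w' : WW P} {x : G} (h : D P w x) (h' : D P w' x) :
    w = w' := by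
  have key : ∀ k, ∀ w w' : WW P, l w = k → k ≤ l w' → ∀ x, D P w x → D P w' x → w = w' := by
    intro k
    induction k using Nat.strong_induction_on with | _ k ih =>
    intro w w' hw hw' x h h'
    rcases k with _ | k
    · obtain rfl := hl.zero w hw
      exact (h'.eq_one (D_one.1 h)).symm
    obtain ⟨g, hg, h1⟩ := hl.desc_left w k hw
    obtain ⟨n, hn⟩ := QuotientGroup.mk_surjective (g * w)
    have h2 : D P (g * w) n := hn ▸ D_mk n
    obtain ⟨y, z, hy, hz, e⟩ := h2.split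
    have h3 := hl.left g hg (g * w')
    rw [← mul_assoc, hg.sq, one_mul] at h3
    rcases D.mul hg hy (h.trans h' hz) with h4 | h4
    · exact mul_left_cancel (ih _ (by omega) _ _ rfl (by omega) _ h2 (e ▸ h4))
    · have := ih _ (by omega) _ _ rfl (by omega) _ h2 (e ▸ h4)
      rw [← this] at hw'
      omega
  rcases le_total (l w) (l w') with h1 | h1
  · exact key _ w w' rfl h1 x h h'
  · exact (key _ w' w rfl h1 x h' h).symm

theorem Len.mul (hl : Len P l) {g : WW P} (hg : Sb P g) {w : WW P} (hw : l w ≤ l (g * w))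
    {x y : G} (hx : D P g x) (hy : D P w y) : D P (g * w) (x * y) := by
  have key : ∀ k, ∀ w : WW P, l w = k → l w ≤ l (g * w) → ∀ x y, D P g x → D P w y →
      D P (g * w) (x * y) := by
    intro k
    induction k using Nat.strong_induction_on with | _ k ih =>
    intro w hk hw x y hx hy
    rcases k with _ | k
    · obtain rfl := hl.zero w hk
      rw [mul_one]
      exact hx.right (D_one.1 hy)
    obtain ⟨g', hg', h1⟩ := hl.desc_right w k hk
    refine (D.mul hg hx hy).resolve_right fun h => ?_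
    have e : w = w * g' * g' := by rw [mul_assoc, hg'.sq, mul_one]
    obtain ⟨y', z, hy', hz, rfl⟩ := D.split (e ▸ hy : D P (w * g' * g') y)
    have h2 := hl.right g' hg' (g * (w * g'))
    rw [mul_assoc, ← e] at h2
    have h3 := ih _ (by omega) (w * g') rfl (by omega) x y' hx hy'
    have h4 := D.mul' hg' h (hg'.inv ▸ hz.inv)
    rw [← mul_assoc, mul_inv_cancel_right] at h4
    rcases h4 with h4 | h4
    · exact hg.ne_one (mul_eq_right.1 (hl.unique h3 h4))
    · have h5 := hl.unique h3 h4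
      rw [show g * w = w * g' by nth_rw 1 [← h5]; rw [← mul_assoc, hg.sq, one_mul]] at hw
      omega
  exact key _ w rfl hw x y hx hy

theorem out_mk (g : G) : ∃ b ∈ P.B, (g : G ⧸ P.B).out = g * b := by
  obtain ⟨b, hb⟩ := QuotientGroup.mk_out_eq_mul P.B g
  exact ⟨b, b.2, hb⟩

open Classical in
/-- adjacency matrices -/
noncomputable def TT (P : BNPair G) (w : WW P) : Matrix (G ⧸ P.B) (G ⧸ P.B) ℂ :=
  Matrix.of fun x y => if D P w (x.out⁻¹ * y.out) then 1 else 0

theorem out_mem {x y : G ⧸ P.B} : x.out⁻¹ * y.out ∈ P.B ↔ x = y := by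
  rw [← QuotientGroup.eq, QuotientGroup.out_eq', QuotientGroup.out_eq']

variable [Fintype (G ⧸ P.B)] [DecidableEq (G ⧸ P.B)]

omit [Fintype (G ⧸ P.B)] in
theorem TT_one : TT P 1 = 1 := by
  ext x y
  simp [TT, D_one, out_mem, Matrix.one_apply]

omit [DecidableEq (G ⧸ P.B)] in
theorem trace_TT {w w' : WW P} (hl : Len P l) (h : w * w' ≠ 1) : (TT P w * TT P w').trace = 0 := by
  simp only [Matrix.trace, Matrix.diag, Matrix.mul_apply, TT, Matrix.of_apply]
  refine Finset.sum_eq_zero fun x _ => Finset.sum_eq_zero fun y _ => ?_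
  split_ifs with h1 h2 <;> try simp
  exact h (mul_eq_one_iff_inv_eq.2 (hl.unique h1.inv (by simpa using h2)))

omit [DecidableEq (G ⧸ P.B)] in
theorem TT_mul (hl : Len P l) {g : WW P} (hg : Sb P g) {w : WW P} (hw : l w ≤ l (g * w)) :
    TT P g * TT P w = TT P (g * w) := by
  classical
  ext x z
  simp only [Matrix.mul_apply, TT, Matrix.of_apply, ite_zero_mul_ite_zero, mul_one]
  split_ifs with h
  · obtain ⟨u, v, hu, hv, e⟩ := h.split
    obtain ⟨b, hb, e1⟩ := out_mk (P := P) (x.out * u)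
    have h1 : D P g (x.out⁻¹ * (x.out * u : G ⧸ P.B).out) := by
      rw [e1, mul_assoc, inv_mul_cancel_left]; exact hu.right hb
    have h2 : D P w ((x.out * u : G ⧸ P.B).out⁻¹ * z.out) := by
      rw [e1, mul_inv_rev, mul_inv_rev, mul_assoc, mul_assoc, e, inv_mul_cancel_left]
      exact hv.left (P.B.inv_mem hb)
    rw [Finset.sum_eq_single (x.out * u : G ⧸ P.B) (fun y _ hy => if_neg fun h3 => ?_) (by simp),
      if_pos ⟨h1, h2⟩]
    have h4 := D.mul hg (hg.inv ▸ h3.1.inv) h1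
    rw [mul_inv_rev, inv_inv, mul_assoc, mul_inv_cancel_left, hg.sq, D_one, out_mem] at h4
    have h5 := hl.mul hg hw (h4.resolve_left hy) h2
    rw [mul_assoc, mul_inv_cancel_left] at h5
    exact hg.ne_one (mul_eq_right.1 (hl.unique h5 h3.2))
  · refine Finset.sum_eq_zero fun y _ => if_neg fun h1 => h ?_
    simpa [mul_assoc] using hl.mul hg hw h1.1 h1.2

theorem TT_sq [Finite G] {g : WW P} (hg : Sb P g) : ∃ q : ℕ, 2 ≤ q ∧
    TT P g * TT P g = (q : ℂ) • 1 + ((q : ℂ) - 1) • TT P g ∧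
    (TT P g).mulVec (fun _ => 1) = fun _ => (q : ℂ) := by
  classical
  let Q : Subgroup G :=
    { carrier := {x | x ∈ P.B ∨ D P g x}
      one_mem' := Or.inl P.B.one_mem
      mul_mem' := by
        rintro x y (hx | hx) (hy | hy)
        · exact Or.inl (P.B.mul_mem hx hy)
        · exact Or.inr (hy.left hx)
        · exact Or.inr (hx.right hy)
        · simpa [hg.sq, D_one] using D.mul hg hx hy
      inv_mem' := by
        rintro x (hx | hx)
        · exact Or.inl (P.B.inv_mem hx)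
        · exact Or.inr (hg.inv ▸ hx.inv) }
  have hBQ : P.B ≤ Q := fun _ => Or.inl
  have hA : ∀ x y, (1 + TT P g) x y = if x.out⁻¹ * y.out ∈ Q then 1 else 0 := fun x y => by
    simp only [Matrix.add_apply, Matrix.one_apply, TT, Matrix.of_apply, ← out_mem]
    by_cases h1 : x.out⁻¹ * y.out ∈ P.B
    · rw [if_pos h1, if_neg fun h => hg.ne_one (h.eq_one h1), if_pos (hBQ h1), add_zero]
    · simp [h1, Q]
  let c := (Finset.univ.filter fun y : G ⧸ P.B => y.out ∈ Q).card
  have hc : ∀ u : G, (Finset.univ.filter fun y : G ⧸ P.B => u⁻¹ * y.out ∈ Q).card = c := by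
    intro u
    refine Finset.card_bijective (u⁻¹ • ·) (MulAction.bijective _) fun y => ?_
    obtain ⟨b, hb, e⟩ := out_mk (P := P) (u⁻¹ * y.out)
    simp only [Finset.mem_filter, Finset.mem_univ, true_and]
    rw [← MulAction.Quotient.mk_smul_out, smul_eq_mul, e, Q.mul_mem_cancel_right (hBQ hb)]
  have h3 : 2 < c := by
    obtain ⟨s, hs, rfl⟩ := hg
    obtain ⟨b, hb, hb'⟩ : ∃ b ∈ P.B, (s : G) * b * s ∉ P.B := by
      by_contra! h
      refine P.conj_ne s hs (Set.eq_of_subset_of_ncard_le ?_ ?_)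
      · rintro _ ⟨b, hb, rfl⟩; exact h b hb
      · rw [Set.ncard_image_of_injective _ fun a b e => by simpa using e]
    have hsB : (s : G) ∉ P.B := fun h =>
      Sb.ne_one ⟨s, hs, rfl⟩ ((QuotientGroup.eq_one_iff s).2 ⟨h, s.2⟩)
    have hm : ∀ u ∈ Q, (u : G ⧸ P.B) ∈ Finset.univ.filter fun y : G ⧸ P.B => y.out ∈ Q :=
      fun u hu => by
        obtain ⟨b, hb, e⟩ := out_mk (P := P) u
        simpa [e] using Q.mul_mem hu (hBQ hb)
    refine Finset.two_lt_card.2 ⟨_, hm 1 Q.one_mem, _, hm s (Or.inr (D_mk s)), _,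
      hm (b * s) (Or.inr ((D_mk s).left hb)), ?_, ?_, ?_⟩
    · simpa [QuotientGroup.eq] using hsB
    · simpa [QuotientGroup.eq, P.B.mul_mem_cancel_left hb] using hsB
    · rw [Ne, QuotientGroup.eq]
      intro h
      simpa [mul_assoc] using hb' (by simpa [mul_assoc] using P.B.mul_mem (P.sq_mem s hs) h)
  have e1 : (1 + TT P g) * (1 + TT P g) = (c : ℂ) • (1 + TT P g) := by
    ext x z
    simp only [Matrix.mul_apply, Matrix.smul_apply, hA, ite_zero_mul_ite_zero, mul_one,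
      Finset.sum_boole, smul_eq_mul]
    split_ifs with h
    · rw [mul_one, ← hc x.out]
      congr 2
      ext y
      simp only [Finset.mem_filter, Finset.mem_univ, true_and]
      refine and_iff_left_of_imp fun h1 => ?_
      simpa [mul_assoc] using Q.mul_mem (Q.inv_mem h1) h
    · rw [mul_zero, Finset.filter_eq_empty_iff.2 fun y _ h1 => h ?_]
      · simp
      · simpa [mul_assoc] using Q.mul_mem h1.1 h1.2
  have e2 : (1 + TT P g).mulVec (fun _ => 1) = fun _ => (c : ℂ) := by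
    funext x
    simp [Matrix.mulVec, dotProduct, hA, hc]
  obtain ⟨q, hq⟩ : ∃ q, c = q + 1 := ⟨c - 1, by omega⟩
  rw [hq] at e1 e2
  refine ⟨q, by omega, ?_, ?_⟩
  · rw [mul_add, add_mul, add_mul, one_mul, one_mul, mul_one] at e1
    rw [eq_sub_of_add_eq' (eq_sub_of_add_eq' e1)]
    push_cast
    module
  · rw [Matrix.add_mulVec, Matrix.one_mulVec] at e2
    funext x
    have := congrFun e2 x
    simp only [Pi.add_apply] at this
    push_cast at this
    linear_combination this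

end Cfsg.Agent.H4.FH
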