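import Cfsg.Agent.H4.FH1
import Cfsg.Agent.H4.FH2
import Cfsg.Agent.H4.FH3
import Cfsg.Agent.H4.TI

/-! Feit–Higman: dihedral Weyl groups and the conclusion. -/

set_option autoImplicit false

namespace Cfsg.Agent.H4.FH

section dihedral
variable {W : Type*} [Group W] {s t : W}

/-- alternating words -/
def ee (s t : W) (i : ℤ) : W := (s * t) ^ (i / 2) * (if i % 2 = 0 then 1 else s)

theorem ee_even (j : ℤ) : ee s t (2 * j) = (s * t) ^ j := by simp [ee]

theorem ee_odd (j : ℤ) : ee s t (2 * j + 1) = (s * t) ^ j * s := by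
  simp only [ee]
  rw [if_neg (by omega), show (2 * j + 1) / 2 = j by omega]

variable (hs : s * s = 1) (ht : t * t = 1)
include hs ht

theorem s_zpow (j : ℤ) : s * (s * t) ^ j = (s * t) ^ (-j) * s := by
  have : s * (s * t) * s⁻¹ = (s * t)⁻¹ := by
    rw [mul_inv_rev, inv_eq_of_mul_eq_one_left hs, inv_eq_of_mul_eq_one_left ht, ← mul_assoc, hs,
      one_mul]
  rw [zpow_neg, ← inv_zpow, ← this, conj_zpow, inv_mul_cancel_right]

theorem s_ee (i : ℤ) : s * ee s t i = ee s t (1 - i) := by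
  obtain ⟨j, rfl | rfl⟩ := i.even_or_odd'
  · rw [show 1 - 2 * j = 2 * (-j) + 1 by ring, ee_even, ee_odd, s_zpow hs ht]
  · rw [show 1 - (2 * j + 1) = 2 * (-j) by ring, ee_even, ee_odd, ← mul_assoc, s_zpow hs ht,
      mul_assoc, hs, mul_one]

theorem t_ee (i : ℤ) : t * ee s t i = ee s t (-1 - i) := by
  have e : s * t * ee s t i = ee s t (i + 2) := by
    obtain ⟨j, rfl | rfl⟩ := i.even_or_odd'
    · rw [show 2 * j + 2 = 2 * (1 + j) by ring, ee_even, ee_even, zpow_one_add]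
    · rw [show 2 * j + 1 + 2 = 2 * (1 + j) + 1 by ring, ee_odd, ee_odd, zpow_one_add, mul_assoc,
        mul_assoc, mul_assoc]
  rw [show -1 - i = 1 - (i + 2) by ring, ← s_ee hs ht, ← e, ← mul_assoc, ← mul_assoc, hs, one_mul]

theorem ee_inv (i : ℤ) : ∃ j : ℤ, (ee s t i)⁻¹ = ee s t j ∧ j.natAbs = i.natAbs := by
  obtain ⟨j, rfl | rfl⟩ := i.even_or_odd'
  · exact ⟨2 * (-j), by rw [ee_even, ee_even, zpow_neg], by omega⟩
  · refine ⟨_, ?_, rfl⟩
    rw [ee_odd, mul_inv_rev, inv_eq_of_mul_eq_one_left hs, ← zpow_neg, s_zpow hs ht, neg_neg]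

theorem ee_surj (hgen : Subgroup.closure {s, t} = ⊤) (w : W) : ∃ i, ee s t i = w := by
  have hw : w ∈ Subgroup.closure {s, t} := hgen ▸ Subgroup.mem_top w
  have key : ∀ x ∈ ({s, t} : Set W), ∀ y, (∃ i, ee s t i = y) → ∃ i, ee s t i = x * y := by
    rintro x (rfl | rfl) _ ⟨i, rfl⟩
    · exact ⟨_, (s_ee hs ht i).symm⟩
    · exact ⟨_, (t_ee hs ht i).symm⟩
  induction hw using Subgroup.closure_induction_left with
  | one => exact ⟨0, by simp [ee]⟩
  | mul_left x hx y _ ih => exact key x hx y ih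
  | inv_mul_cancel x hx y _ ih =>
    rw [show x⁻¹ = x by
      rcases hx with rfl | rfl
      exacts [inv_eq_of_mul_eq_one_left hs, inv_eq_of_mul_eq_one_left ht]]
    exact key x hx y ih

theorem s_ne_zpow (hs1 : s ≠ 1) (ht1 : t ≠ 1) (j : ℤ) : (s * t) ^ j ≠ s := by
  intro h
  have h1 := s_zpow hs ht 1
  have h2 : s * (s * t) ^ (1 : ℤ) = (s * t) ^ (1 : ℤ) * s := by
    generalize s * t = r at h
    rw [← h, ← zpow_add, ← zpow_add, add_comm]
  have h3 : (s * t) ^ (2 : ℤ) = 1 := by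
    have := mul_right_cancel (h1.symm.trans h2)
    rw [show (2 : ℤ) = 1 + 1 from rfl, zpow_add]
    nth_rw 1 [← this]
    rw [← zpow_add]; simp
  obtain ⟨k, rfl | rfl⟩ := j.even_or_odd'
  · rw [zpow_mul, h3, one_zpow] at h
    exact hs1 h.symm
  · rw [zpow_add_one, zpow_mul, h3, one_zpow, one_mul] at h
    exact ht1 (mul_eq_left.1 h)

theorem ee_eq (hs1 : s ≠ 1) (ht1 : t ≠ 1) {i j : ℤ} :
    ee s t i = ee s t j ↔ 2 * (orderOf (s * t) : ℤ) ∣ i - j := by
  have key : ∀ a b : ℤ, (s * t) ^ a ≠ (s * t) ^ b * s := fun a b h =>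
    s_ne_zpow hs ht hs1 ht1 (-b + a) (by rw [zpow_add, h, zpow_neg, inv_mul_cancel_left])
  obtain ⟨a, rfl | rfl⟩ := i.even_or_odd' <;> obtain ⟨b, rfl | rfl⟩ := j.even_or_odd' <;>
    simp only [ee_even, ee_odd]
  · rw [← orderOf_dvd_sub_iff_zpow_eq_zpow, ← mul_sub, mul_dvd_mul_iff_left two_ne_zero]
  · exact iff_of_false (key a b) fun h => by have := dvd_of_mul_right_dvd h; omega
  · exact iff_of_false (key b a).symm fun h => by have := dvd_of_mul_right_dvd h; omega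
  · rw [mul_left_inj, ← orderOf_dvd_sub_iff_zpow_eq_zpow, add_sub_add_right_eq_sub, ← mul_sub,
      mul_dvd_mul_iff_left two_ne_zero]

/-- the length -/
noncomputable def len (s t w : W) : ℕ := sInf {k | ∃ i : ℤ, ee s t i = w ∧ i.natAbs = k}

omit hs ht in
theorem len_le (i : ℤ) : len s t (ee s t i) ≤ i.natAbs := Nat.sInf_le ⟨i, rfl, rfl⟩

theorem exists_len (hgen : Subgroup.closure {s, t} = ⊤) (w : W) :
    ∃ i : ℤ, ee s t i = w ∧ i.natAbs = len s t w := by
  obtain ⟨i, hi⟩ := ee_surj hs ht hgen w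
  exact Nat.sInf_mem (s := {k | ∃ i : ℤ, ee s t i = w ∧ i.natAbs = k}) ⟨_, i, hi, rfl⟩

theorem len_inv (hgen : Subgroup.closure {s, t} = ⊤) (w : W) : len s t w⁻¹ = len s t w := by
  have key : ∀ w : W, len s t w⁻¹ ≤ len s t w := fun w => by
    obtain ⟨i, rfl, h⟩ := exists_len hs ht hgen w
    obtain ⟨j, h1, h2⟩ := ee_inv hs ht i
    rw [h1, ← h, ← h2]
    exact len_le j
  exact le_antisymm (key w) (by simpa using key w⁻¹)

theorem len_ee (hs1 : s ≠ 1) (ht1 : t ≠ 1) (hgen : Subgroup.closure {s, t} = ⊤) {i : ℤ}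
    (hi : i.natAbs ≤ orderOf (s * t)) : len s t (ee s t i) = i.natAbs := by
  obtain ⟨j, h1, h2⟩ := exists_len hs ht hgen (ee s t i)
  refine le_antisymm (len_le i) ?_
  rw [← h2]
  by_contra h
  have := Int.eq_zero_of_dvd_of_natAbs_lt_natAbs ((ee_eq hs ht hs1 ht1).1 h1) (by omega)
  omega

theorem card_eq (hs1 : s ≠ 1) (ht1 : t ≠ 1) (hgen : Subgroup.closure {s, t} = ⊤) :
    Nat.card W = 2 * orderOf (s * t) := by
  rw [← Nat.card_zpowers, ← Subgroup.card_top]
  refine card_eq_two_mul le_top (Subgroup.mem_top s)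
    (fun ⟨j, h⟩ => s_ne_zpow hs ht hs1 ht1 j h) fun w _ => ?_
  obtain ⟨i, rfl⟩ := ee_surj hs ht hgen w
  obtain ⟨j, rfl | rfl⟩ := i.even_or_odd'
  · exact Or.inr ⟨j, (ee_even j).symm⟩
  · exact Or.inl ⟨j, by rw [ee_odd, mul_assoc, hs, mul_one]⟩

end dihedral

open Real in
theorem main {G : Type*} [Group G] [Finite G] (P : BNPair G) (h2 : P.rank = 2) :
    Nat.card (WW P) ∈ ({4, 6, 8, 12, 16} : Set ℕ) := by
  classical
  have := Fintype.ofFinite (G ⧸ P.B)
  obtain ⟨s0, t0, hne, hS⟩ := Set.ncard_eq_two.1 (show P.S.ncard = 2 from h2)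
  have hs0 : s0 ∈ P.S := by simp [hS]
  have ht0 : t0 ∈ P.S := by simp [hS]
  obtain ⟨s, hs'⟩ : ∃ s : WW P, s = (⟨s0, P.subset hs0⟩ : P.N) := ⟨_, rfl⟩
  obtain ⟨t, ht'⟩ : ∃ t : WW P, t = (⟨t0, P.subset ht0⟩ : P.N) := ⟨_, rfl⟩
  have hSb : ∀ g, Sb P g ↔ g = s ∨ g = t := fun g => by
    constructor
    · rintro ⟨⟨n, hn⟩, h, rfl⟩
      rw [hS] at h
      rcases h with rfl | rfl
      exacts [Or.inl hs'.symm, Or.inr ht'.symm]
    · rintro (rfl | rfl)
      exacts [⟨_, hs0, hs'.symm⟩, ⟨_, ht0, ht'.symm⟩]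
  have hbs := (hSb s).2 (Or.inl rfl)
  have hbt := (hSb t).2 (Or.inr rfl)
  have hs := hbs.sq
  have ht := hbt.sq
  have hs1 := hbs.ne_one
  have ht1 := hbt.ne_one
  have hst : s ≠ t := fun h => hne (P.inj s0 hs0 t0 ht0 ((mk_eq_mk P).1 (hs'.symm.trans (h.trans ht'))))
  have hgen : Subgroup.closure {s, t} = ⊤ := by
    rw [eq_top_iff]
    intro w _
    induction w using QuotientGroup.induction_on with | H n =>
    have h1 : P.N ≤ ((Subgroup.closure {s, t}).comap (QuotientGroup.mk' (HH P))).map P.N.subtype := by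
      refine P.closure_sup.ge.trans (sup_le ((Subgroup.closure_le _).2 fun x hx => ?_)
        fun x hx => ⟨⟨x, hx.2⟩, ?_, rfl⟩)
      · exact ⟨⟨x, P.subset hx⟩, Subgroup.subset_closure ((hSb _).1 ⟨_, hx, rfl⟩), rfl⟩
      · show ((⟨x, hx.2⟩ : P.N) : WW P) ∈ Subgroup.closure {s, t}
        rw [(QuotientGroup.eq_one_iff _).2 (show (⟨x, hx.2⟩ : P.N) ∈ HH P from hx)]
        exact Subgroup.one_mem _
    obtain ⟨n', h, e⟩ := h1 n.2
    rwa [show n' = n from Subtype.ext e] at h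
  have hl1 : ∀ g, Sb P g → ∀ w, len s t (g * w) ≤ len s t w + 1 := fun g hg w => by
    obtain ⟨i, rfl, h⟩ := exists_len hs ht hgen w
    rcases (hSb g).1 hg with rfl | rfl
    · rw [s_ee hs ht]; exact (len_le _).trans (by omega)
    · rw [t_ee hs ht]; exact (len_le _).trans (by omega)
  have hl2 : ∀ w k, len s t w = k + 1 → ∃ g, Sb P g ∧ len s t (g * w) ≤ k := fun w k hk => by
    obtain ⟨i, rfl, h⟩ := exists_len hs ht hgen w
    rcases le_total 0 i with h0 | h0
    · exact ⟨s, hbs, by rw [s_ee hs ht]; exact (len_le _).trans (by omega)⟩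
    · exact ⟨t, hbt, by rw [t_ee hs ht]; exact (len_le _).trans (by omega)⟩
  have hl : Len P (len s t) :=
    { zero := fun w h => by
        obtain ⟨i, rfl, h'⟩ := exists_len hs ht hgen w
        rw [show i = 2 * 0 by omega, ee_even, zpow_zero]
      left := hl1
      right := fun g hg w => by
        rw [← len_inv hs ht hgen, mul_inv_rev, hg.inv, ← len_inv hs ht hgen w]
        exact hl1 g hg _
      desc_left := hl2
      desc_right := fun w k hk => by
        obtain ⟨g, hg, h⟩ := hl2 w⁻¹ k (by rwa [len_inv hs ht hgen])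
        exact ⟨g, hg, by rwa [← len_inv hs ht hgen, mul_inv_rev, hg.inv]⟩ }
  rw [card_eq hs ht hs1 ht1 hgen]
  have hlen := fun i => len_ee hs ht hs1 ht1 hgen (i := i)
  have heq := fun i j => ee_eq hs ht hs1 ht1 (i := i) (j := j)
  have hm0 : 0 < orderOf (s * t) := orderOf_pos _
  have hst1 : s * t ≠ 1 := fun h => hst (mul_left_cancel (hs.trans h.symm))
  have hm1 : orderOf (s * t) ≠ 1 := mt orderOf_eq_one_iff.1 hst1
  generalize orderOf (s * t) = m at *
  by_cases hm2 : m = 2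
  · simp [hm2]
  have hm : 3 ≤ m := by omega
  have hA : ∀ i : ℤ, i ≤ 0 → 1 - i ≤ m → TT P s * TT P (ee s t i) = TT P (ee s t (1 - i)) :=
    fun i h1 h2 => by
      rw [TT_mul hl hbs (by rw [s_ee hs ht, hlen _ (by omega), hlen _ (by omega)]; omega),
        s_ee hs ht]
  have hB : ∀ i : ℤ, 0 ≤ i → 1 + i ≤ m → TT P t * TT P (ee s t i) = TT P (ee s t (-1 - i)) :=
    fun i h1 h2 => by
      rw [TT_mul hl hbt (by rw [t_ee hs ht, hlen _ (by omega), hlen _ (by omega)]; omega),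
        t_ee hs ht]
  have hR : ∀ j : ℕ, 2 * j ≤ m → (TT P s * TT P t) ^ j = TT P (ee s t (2 * j)) ∧
      (TT P t * TT P s) ^ j = TT P (ee s t (2 * -j)) := by
    intro j
    induction j with
    | zero => intro _; simp [ee, TT_one]
    | succ j ih =>
      intro hj
      obtain ⟨h1, h2⟩ := ih (by omega)
      rw [pow_succ', pow_succ', h1, h2, mul_assoc, mul_assoc, hB _ (by omega) (by omega),
        hA _ (by omega) (by omega), hA _ (by omega) (by omega), hB _ (by omega) (by omega)]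
      constructor <;> congr 2 <;> push_cast <;> ring
  obtain ⟨a, ha, hS2, hS1⟩ := TT_sq hbs
  obtain ⟨b, hb, hT2, hT1⟩ := TT_sq hbt
  have hodd : ∀ n, m = 2 * n + 1 →
      TT P s * (TT P t * TT P s) ^ n = TT P t * (TT P s * TT P t) ^ n := fun n hn => by
    rw [(hR n (by omega)).1, (hR n (by omega)).2, hA _ (by omega) (by omega),
      hB _ (by omega) (by omega), (heq _ (-1 - 2 * n)).2 ⟨1, by omega⟩]
  have hab : Odd m → a = b := by
    rintro ⟨n, hn⟩
    have key : ∀ (X Y : Matrix (G ⧸ P.B) (G ⧸ P.B) ℂ) (c d : ℂ),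
        X.mulVec (fun _ => 1) = (fun _ => c) → Y.mulVec (fun _ => 1) = (fun _ => d) →
        (X * Y).mulVec (fun _ => 1) = fun _ => c * d := fun X Y c d hX hY => by
      rw [← Matrix.mulVec_mulVec, hY, show (fun _ => d) = d • (fun _ : G ⧸ P.B => (1 : ℂ)) by
        funext; simp, Matrix.mulVec_smul, hX]
      funext; simp [mul_comm]
    have key2 : ∀ (X : Matrix (G ⧸ P.B) (G ⧸ P.B) ℂ) (c : ℂ),
        X.mulVec (fun _ => 1) = (fun _ => c) → ∀ n : ℕ,
        (X ^ n).mulVec (fun _ => 1) = fun _ => c ^ n := fun X c hX n => by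
      induction n with
      | zero => simp
      | succ n ih => rw [pow_succ, key _ _ _ _ ih hX, pow_succ]
    have e1 := key _ _ _ _ hS1 (key2 _ _ (key _ _ _ _ hT1 hS1) n)
    rw [hodd n hn, key _ _ _ _ hT1 (key2 _ _ (key _ _ _ _ hS1 hT1) n)] at e1
    have e2 := congrFun e1 ((1 : G) : G ⧸ P.B)
    rw [mul_comm (a : ℂ) b] at e2
    exact_mod_cast (mul_right_cancel₀ (pow_ne_zero _ (mul_ne_zero
      (Nat.cast_ne_zero.2 (by omega)) (Nat.cast_ne_zero.2 (by omega)))) e2).symm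
  obtain ⟨σ, hσ0, hσ⟩ : ∃ σ : ℝ, 0 < σ ∧ σ ^ 2 = a :=
    ⟨√a, sqrt_pos.2 (by positivity), sq_sqrt (by positivity)⟩
  obtain ⟨τ, hτ0, hτ, hστ⟩ : ∃ τ : ℝ, 0 < τ ∧ τ ^ 2 = b ∧ (a = b → σ = τ) :=
    ⟨√b, sqrt_pos.2 (by positivity), sq_sqrt (by positivity), fun h => by
      rw [← h, ← hσ, sqrt_sq hσ0.le]⟩
  have hσ' : (σ : ℂ) ^ 2 = a := by exact_mod_cast hσ
  have hτ' : (τ : ℂ) ^ 2 = b := by exact_mod_cast hτ
  have hσ1 : (σ : ℂ) ≠ 0 := by exact_mod_cast hσ0.ne'
  have hτ1 : (τ : ℂ) ≠ 0 := by exact_mod_cast hτ0.ne'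
  have hq : ∀ (X : Matrix (G ⧸ P.B) (G ⧸ P.B) ℂ) (c d : ℂ), d ≠ 0 → d ^ 2 = c →
      X * X = c • 1 + (c - 1) • X →
      d⁻¹ • X * d⁻¹ • X = 1 + ((c - 1) / d) • d⁻¹ • X := fun X c d h0 h1 h => by
    rw [smul_mul_smul_comm, h, ← h1]
    match_scalars <;> field_simp
  have hS := hq _ _ _ hσ1 hσ' hS2
  have hT := hq _ _ _ hτ1 hτ' hT2
  have hkk : ∀ j : ℕ, 2 * j ≤ m → kk ((σ : ℂ)⁻¹ • TT P s) ((τ : ℂ)⁻¹ • TT P t) j =
      ((σ : ℂ)⁻¹ * (τ : ℂ)⁻¹) ^ j • (TT P (ee s t (2 * j)) - TT P (ee s t (2 * -j))) :=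
    fun j hj => by
      simp only [kk, smul_mul_smul_comm, smul_pow, (hR j hj).1, (hR j hj).2, smul_sub,
        mul_comm (τ : ℂ)⁻¹]
  have htr : ∀ i j : ℤ, i + j ≠ 0 → (i + j).natAbs < m →
      (TT P (ee s t (2 * i)) * TT P (ee s t (2 * j))).trace = 0 := fun i j h1 h2 =>
    trace_TT hl fun h => h1 (by
      rw [ee_even, ee_even, ← zpow_add, ← ee_even, ← zpow_zero (s * t), ← ee_even, heq] at h
      have := Int.eq_zero_of_dvd_of_natAbs_lt_natAbs h (by omega)
      omega)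
  have key := fun ζ => mult hS hT hm (ζ := ζ) (by
      rcases Nat.even_or_odd' m with ⟨n, rfl | rfl⟩
      · intro j hj
        refine kk_refl_even hS hT (sub_eq_zero.1 ?_) j (by omega)
        have := hkk n le_rfl
        rw [(heq (2 * n) (2 * -n)).2 ⟨1, by push_cast; ring⟩, sub_self, smul_zero] at this
        exact this
      · intro j hj
        obtain rfl := hab ⟨n, rfl⟩
        obtain rfl := hστ rfl
        refine kk_refl_odd hS hT rfl ?_ j (by omega)
        simp only [smul_mul_smul_comm, smul_pow, hodd n rfl])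
    (fun j h1 h2 => by
      rw [hkk 1 (by omega), hkk j h2, smul_mul_smul_comm, Matrix.trace_smul, sub_mul, mul_sub,
        mul_sub, Matrix.trace_sub, Matrix.trace_sub, Matrix.trace_sub, htr _ _ (by omega) (by omega),
        htr _ _ (by omega) (by omega), htr _ _ (by omega) (by omega), htr _ _ (by omega) (by omega)]
      simp)
    (by
      have e1 := htr 1 1 (by omega) (by omega)
      have e2 := htr (-1) (-1) (by omega) (by omega)
      have e3 := hR 1 (by omega)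
      simp only [pow_one, Nat.cast_one] at e3
      rw [← e3.1] at e1
      rw [← e3.2] at e2
      have e4 : (TT P s).trace = 0 := by
        simpa [TT_one] using trace_TT hl (w := s) (w' := 1) (by simpa using hs1)
      have e5 : (TT P t).trace = 0 := by
        simpa [TT_one] using trace_TT hl (w := t) (w' := 1) (by simpa using ht1)
      have e6 := trace_TT hl hst1
      have e7 : (TT P s * TT P t * (TT P t * TT P s)).trace = a * b * Fintype.card (G ⧸ P.B) := by
        rw [← mul_assoc, Matrix.trace_mul_comm, mul_assoc, ← mul_assoc (TT P s), hS2, hT2]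
        simp [add_mul, mul_add, e4, e5, e6]
        ring
      simp only [kk, pow_one, smul_mul_smul_comm, sub_mul, mul_sub, Matrix.trace_sub,
        Matrix.trace_smul, e1, e2, e7, Matrix.trace_mul_comm (TT P t * TT P s), smul_eq_mul]
      rw [← hσ', ← hτ']
      field_simp
      ring)
  have hres := arith ha hb (mul_pos hσ0 hτ0) (by rw [mul_pow, hσ, hτ]) hm hab (by
    rintro j hj1 hj2 _ rfl
    have hm' : (0 : ℝ) < m := by positivity
    have hsin : 0 < sin (2 * π * j / m) := sin_pos_of_pos_of_lt_pi (by positivity) (by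
      have : (2 * j : ℝ) < m := by exact_mod_cast hj2
      rw [div_lt_iff₀ hm']; nlinarith [pi_pos])
    have hcos := sin_sq_add_cos_sq (2 * π * j / m)
    have hy : Complex.exp ((2 * π * j / m : ℝ) * Complex.I) +
        (Complex.exp ((2 * π * j / m : ℝ) * Complex.I))⁻¹ = (2 * cos (2 * π * j / m) : ℝ) := by
      rw [← Complex.exp_neg, ← neg_mul, ← Complex.two_cos]
      push_cast; rfl
    obtain ⟨μ, hμ⟩ := key (Complex.exp ((2 * π * j / m : ℝ) * Complex.I)) (by
      rw [← Complex.exp_nat_mul, ← Complex.exp_nat_mul_two_pi_mul_I j]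
      congr 1
      have : (m : ℂ) ≠ 0 := by exact_mod_cast hm'.ne'
      push_cast
      field_simp) (fun h => by
        have h1 := congrArg Complex.im (eq_inv_of_mul_eq_one_left ((pow_two _).symm.trans h))
        rw [← Complex.exp_neg, ← neg_mul, ← Complex.ofReal_neg, Complex.exp_ofReal_mul_I_im,
          Complex.exp_ofReal_mul_I_im, sin_neg] at h1
        linarith)
    rw [hy] at hμ
    generalize cos (2 * π * j / m) = y at *
    have hμ' : (μ : ℝ) * m * (((a - 1) / σ) ^ 2 + ((b - 1) / τ) ^ 2 + 4 +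
        (a - 1) / σ * ((b - 1) / τ) * (2 * y) - (2 * y) ^ 2) =
        2 * Fintype.card (G ⧸ P.B) * (4 - (2 * y) ^ 2) := by exact_mod_cast hμ
    have hX : (0 : ℝ) < Fintype.card (G ⧸ P.B) := by exact_mod_cast Fintype.card_pos
    have hμ0 : (μ : ℝ) ≠ 0 := fun h => by
      rw [h] at hμ'
      nlinarith [mul_pos hX (pow_pos hsin 2)]
    refine ⟨2 * Fintype.card (G ⧸ P.B) / (μ * m), ?_⟩
    push_cast
    rw [← hσ, ← hτ] at hμ' ⊢
    field_simp at hμ' ⊢
    linear_combination hμ')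
  rcases hres with rfl | rfl | rfl | rfl <;> simp

end Cfsg.Agent.H4.FH
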